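import Cfsg.Agent.H17.Four
import Cfsg.Agent.H3.BG4a

/-! For odd `p`, a `p`-group of rank at least 4 has a normal elementary abelian subgroup of order `p ^ 4`
(`nml_elem_four`); 3-groups of rank at least 4 are 2-connected (`big_of_rank_four`). -/

set_option autoImplicit false
set_option linter.unusedSectionVars false
set_option linter.unusedVariables false

namespace H17
open Subgroup Cfsg H18
open scoped commutatorElement IsMulCommutative

variable {G : Type*} [Group G] [Finite G] {A E P U X : Subgroup G} {a : G} {p : ℕ}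

theorem card_le_inf_A (hA : MaxElem p A P) (e : A = U ⊔ zpowers a) (hX : X ≤ P ⊓ C(U)) (hx : ∀ x ∈ X, x ^ p = 1)
    {T : Subgroup G} (hT : ∀ x ∈ X, ⁅a, x⁆ ∈ T) (hc : X ≤ C(T)) :
    Nat.card X ≤ Nat.card (A ⊓ X : Subgroup G) * Nat.card T := by
  rw [← H18.card_mul_relIndex' (A := C1(a)) (B := X)]
  refine Nat.mul_le_mul (card_le (le_inf (fun x h => hA.mem (hX h.2).1 ?_ (hx x h.2)) inf_le_right))
    (Nat.le_of_dvd Nat.card_pos (relIndex_C1_dvd' hT hc))
  rw [e]
  exact cent_symm (sup_le (cent_symm (inf_le_right.trans (hX.trans inf_le_right)))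
    (cent_symm (by rw [C_zpowers]; exact inf_le_left))) h

theorem nml_elem_four (hp : p.Prime) (h2 : p ≠ 2) (hP : PiGrp {p} P) (hE : PElem p 4 E P) :
    ∃ A, A ⊴ P ∧ PElem p 4 A P := by
  induction P using WellFoundedLT.induction generalizing E with | _ P ih => ?_
  rcases hE.le.lt_or_eq with l | rfl
  swap; · exact ⟨E, .rfl, hE⟩
  obtain ⟨M, m1, m2, m3⟩ := hP.exists_index_p l
  obtain ⟨E, nE, hE⟩ := ih M (lt_of_le_of_ne m2.le fun e => hp.one_lt.ne' (by rw [← m3, e, relIndex_self]))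
    (hP.of_le m2.le) (hE.of_le' m1)
  obtain ⟨A, -, nA, eA, mA⟩ := H3.exists_max_elem_nml (Nml.bot (H := P)) (elem_bot (p := p))
  by_cases c4 : p ^ 4 ≤ Nat.card A
  · obtain ⟨W, w1, w2, w3⟩ := H3.exists_nml_card hp hP nA c4
    exact ⟨W, w2, w2.le, eA.of_le w1, w3⟩
  have hA := H3.maxElem_of_max_nml hp h2 hP nA eA mA
  have odd : Odd (Nat.card P) := by
    obtain ⟨n, e⟩ := hP.card_eq_pow
    rw [e]; exact (hp.odd_of_ne_two h2).pow
  have c3 : Nat.card A = p ^ 3 := by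
    obtain ⟨B, b1, b2, b3, b4⟩ := H3.exists_nml_elem_three hp hP odd
      (lt_of_lt_of_le (by norm_num) ((hE.of_le m2.le).le_prank hp)) nA eA
    rw [mA B b2 b3 b1] at b4
    obtain ⟨n, e⟩ := (eA.pi hp).card_eq_pow
    rw [e] at b4 c4 ⊢
    rw [Nat.pow_le_pow_iff_right hp.one_lt] at b4 c4
    congr 1; omega
  have lt : ∀ {m n : ℕ}, m < n → p ^ m < p ^ n := fun h => Nat.pow_lt_pow_right hp.one_lt h
  obtain ⟨U, UA, nU, cU⟩ := H3.exists_nml_card hp hP nA (n := 2) (by rw [c3]; exact (lt (by norm_num)).le)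
  have UA' : U < A := lt_of_le_of_ne UA fun e => (lt (by norm_num : 2 < 3)).ne (by rw [← cU, e, c3])
  have sup : ∀ {Y}, Y ≤ A → ¬ Y ≤ U → U ⊔ Y = A := fun {Y} h1 h2 => by
    obtain ⟨W, w1, w2, -, w3⟩ := H3.exists_nml_above (P := U ⊔ Y) (hP.of_le (sup_le nU.le (h1.trans nA.le)))
      ((sup_le nU.le (h1.trans nA.le)).trans nU.norm) .rfl (left_lt_sup.2 h2)
    exact eq_of_le_of_card_ge (sup_le UA h1) ((card_le w2).trans' (by rw [w3, cU, c3, pow_succ p 2]))
  have cm : ⁅A, P⁆ ≤ U := by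
    obtain ⟨W, w1, w2, w4, w3⟩ := H3.exists_nml_above hP nU.norm nA UA'
    rwa [eq_of_le_of_card_ge w2 (by rw [w3, cU, c3, pow_succ p 2])] at w4
  obtain ⟨a, ha, aU⟩ := SetLike.exists_of_lt UA'
  have eA' := (sup (zpowers_le.2 ha) (by rwa [zpowers_le])).symm
  have nle : ∀ {E}, PElem p 4 E P → ¬ A ≤ E := fun hE h => (lt (by norm_num : 3 < 4)).not_ge <| by
    rw [← hE.card, ← c3]; exact card_le (hA.le_of_cent hE.le (cent_mono hE.abel le_rfl h) hE.elem)
  have c1 : ∀ {E}, PElem p 4 E P → E ≤ C(U) := fun {E} hE => by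
    by_contra hn
    have a1 := pow_le_inf_C (k := 3) hP hp nU.norm cU hE.le hE.card.ge
    have a2 : Nat.card (U ⊓ C(E) : Subgroup G) ≤ p := by
      by_cases e : U ⊓ C(E) = ⊥
      · rw [e, card_bot]; exact hp.one_lt.le
      · exact (card_eq_of_lt_sq hp cU (lt_of_le_of_ne inf_le_left fun e => hn (cent_symm (inf_eq_left.1 e))) e).le
    have a3 := card_le_inf_A (X := E ⊓ C(U)) (T := U ⊓ C(E)) hA eA' (inf_le_inf_right _ hE.le)
      (fun x hx => hE.elem.pow x hx.1) (fun x hx => ⟨cm (commutator_mem_commutator ha (hE.le hx.1)), mem_C.2 fun y hy => by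
        have h1 := mem_C.1 hx.2 _ (cm (commutator_mem_commutator (A.inv_mem ha) (hE.le (E.inv_mem hy))))
        have h2 := comm_of_cent hE.abel hx.1 hy
        simp only [commutatorElement_def, inv_inv] at h1 ⊢
        have h3 : y⁻¹ * x * y = x := by rw [mul_assoc, h2, inv_mul_cancel_left]
        calc _ = y * (a * (x * (a⁻¹ * y⁻¹ * a * y)) * (a⁻¹ * y⁻¹ * a * y)⁻¹ * a⁻¹ * x⁻¹) := by group
          _ = y * (a * (a⁻¹ * y⁻¹ * a * y) * x * (a * (a⁻¹ * y⁻¹ * a * y))⁻¹ * x⁻¹) := by rw [← h1]; group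
          _ = y * (a * (a⁻¹ * y⁻¹ * a * y) * (y⁻¹ * x * y) * (a * (a⁻¹ * y⁻¹ * a * y))⁻¹ * (y⁻¹ * x * y)⁻¹) := by rw [h3]
          _ = _ := by group⟩) (cent_symm (inf_le_right.trans (C_anti inf_le_left)))
    have a4 : p ^ 2 ≤ Nat.card (A ⊓ (E ⊓ C(U)) : Subgroup G) :=
      Nat.le_of_mul_le_mul_right ((a1.trans a3).trans (Nat.mul_le_mul_left _ a2)) hp.pos
    have a5 := sup (inf_le_left (b := E ⊓ C(U))) fun h => (lt (by norm_num : 1 < 2)).not_ge <|
      (a4.trans (card_le (le_inf h ((inf_le_right.trans inf_le_left).trans hE.abel)))).trans (by rwa [pow_one])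
    have a6 : E ⊓ C(U) ≤ A := hA.le_of_cent (inf_le_left.trans hE.le) (cent_symm (a5 ▸ sup_le (cent_symm inf_le_right)
      (cent_mono hE.abel (inf_le_right.trans inf_le_left) inf_le_left))) hE.elem.inf_left
    exact nle hE ((eq_of_le_of_card_ge a6 (c3 ▸ a1)).ge.trans inf_le_left)
  refine ⟨E, ⟨hE.le.trans m2.le, fun g hg => mem_N_iff_cj.2 (by_contra fun ne => ?_)⟩, hE.of_le m2.le⟩
  have hE' := hE.cj_N (m2.norm hg)
  have nE' : H18.cj g E ⊴ M := by have := nE.cj g; rwa [mem_N_iff_cj.1 (m2.norm hg)] at this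
  set F := H18.cj g E
  have N2 : Nrm2 E F := Or.inl (hE.le.trans nE'.norm)
  have ex : ∀ x ∈ E ⊔ F, x ^ p = 1 := by
    have cc : ⁅E, F⁆ ≤ C(E ⊔ F) := cent_symm (sup_le (cent_mono hE.abel le_rfl (norm_iff_comm_le'.1 (hE'.le.trans nE.norm)))
      (cent_mono hE'.abel le_rfl (norm_iff_comm_le.1 (hE.le.trans nE'.norm))))
    intro x hx
    obtain ⟨y, hy, z, hz, rfl⟩ := (mem_sup_of_norm' (hE'.le.trans nE.norm)).1 hx
    have m : ⁅z, y⁆ ∈ ⁅E, F⁆ := by rw [H18.comm_comm]; exact commutator_mem_commutator hz hy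
    rw [H3.mul_pow_class_two (mem_C.1 (cc m) y (mem_sup_left hy)) (mem_C.1 (cc m) z (mem_sup_right hz)), hE.elem.pow y hy,
      hE'.elem.pow z hz, mul_one, mul_one]
    obtain ⟨k, hk⟩ := hp.dvd_choose_self two_ne_zero (lt_of_le_of_ne hp.two_le h2.symm)
    rw [hk, pow_mul, hE.elem.pow _ (norm_iff_comm_le'.1 (hE'.le.trans nE.norm) m), one_pow]
  have a1 := card_le_inf_A (X := E ⊔ F) (T := U) hA eA' (sup_le (le_inf (hE.le.trans m2.le) (c1 (hE.of_le m2.le)))
    (le_inf (hE'.le.trans m2.le) (c1 (hE'.of_le m2.le)))) ex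
    (fun x hx => cm (commutator_mem_commutator ha (sup_le (hE.le.trans m2.le) (hE'.le.trans m2.le) hx)))
    (sup_le (c1 (hE.of_le m2.le)) (c1 (hE'.of_le m2.le)))
  have sm : ∀ {Y}, Y < A → Nat.card Y ≤ p ^ 2 := fun {Y} h => by
    obtain ⟨n, e⟩ := ((eA.of_le h.le).pi hp).card_eq_pow
    have := card_lt h
    rw [e, c3, Nat.pow_lt_pow_iff_right hp.one_lt] at this
    rw [e]; exact Nat.pow_le_pow_right hp.pos (by omega)
  by_cases h : A ≤ E ⊔ F
  · have a2 : Nat.card (E ⊓ F : Subgroup G) ≤ p ^ 2 := sm (lt_of_le_of_ne (hA.le_of_cent (inf_le_left.trans (hE.le.trans m2.le))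
      (cent_mono (cent_symm (sup_le (cent_mono hE.abel le_rfl inf_le_left) (cent_mono hE'.abel le_rfl inf_le_right))) le_rfl h)
      hE.elem.inf_left) fun e => nle (hE.of_le m2.le) (e.ge.trans inf_le_left))
    have := Nat.mul_le_mul a1 a2
    rw [N2.card_sup, inf_eq_left.2 h, hE.card, hE'.card, c3, cU, ← pow_add, ← pow_add, ← pow_add] at this
    exact (lt (by norm_num)).not_ge this
  · have := a1.trans (Nat.mul_le_mul_right _ (sm (inf_lt_left.2 h)))
    rw [cU, ← pow_add] at this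
    exact ne (hE.eq_of_le hE' (le_sup_left.trans (eq_of_le_of_card_ge le_sup_right (hE'.card ▸ this)).ge)).symm

theorem card_le_cube {H : Type*} [CommGroup H] [Finite H] (φ : H →* H) (h3 : ∀ a, φ (φ (φ a)) = a) (e : ∀ a : H, a ^ 3 = 1) :
    Nat.card H ≤ Nat.card (φ / MonoidHom.id H).ker ^ 3 := by
  set f := φ / MonoidHom.id H with hf
  have k : ∀ B : Subgroup H, Nat.card B ≤ Nat.card f.ker * Nat.card (B.map f) := fun B => by
    rw [← relIndex_ker, ← H18.card_mul_relIndex' (A := f.ker) (B := B)]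
    exact Nat.mul_le_mul_right _ (card_le inf_le_left)
  have z : (((⊤ : Subgroup H).map f).map f).map f = ⊥ := by
    rw [eq_bot_iff]
    rintro _ ⟨_, ⟨_, ⟨a, -, rfl⟩, rfl⟩, rfl⟩
    simp only [hf, MonoidHom.div_apply, MonoidHom.id_apply, map_div, h3, mem_bot]
    calc _ = φ a ^ 3 / φ (φ a) ^ 3 := by
          apply Additive.ofMul.injective
          simp only [ofMul_div, ofMul_pow]; abel
      _ = 1 := by rw [e, e, div_one]
  have := (k ⊤).trans (Nat.mul_le_mul_left _ ((k _).trans (Nat.mul_le_mul_left _ (k _))))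
  rw [z, card_bot, card_top] at this
  exact this.trans (le_of_eq (by ring))

theorem big_of_rank_four (hP : PiGrp {3} (⊤ : Subgroup G)) (h : 3 < prank 3 (⊤ : Subgroup G)) (he : Elem 3 X)
    (hc : 3 ^ 2 ≤ Nat.card X) : Big 3 ⊤ X := by
  have hp := Nat.prime_three
  by_contra hb
  obtain ⟨E, hE⟩ := exists_pelem_of_lt hp h
  obtain ⟨A, nA, hA⟩ := nml_elem_four hp (by norm_num) hP hE
  have cX := card_eq_of_not_big hp le_top he hc hb
  obtain ⟨z, hz, z1⟩ := (bot_or_exists_ne_one _).resolve_left (hP.omegaZ_ne_bot fun e => hA.ne_bot hp (by norm_num)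
    (le_bot_iff.1 (e ▸ le_top)))
  have zc : ∀ Y : Subgroup G, z ∈ C(Y) := fun Y => C_anti le_top (omega_le hz).2
  have zX := mem_of_not_big hp le_top he hc hb (mem_top z) (omegaZ_elem.pow z hz) (zc X)
  have cz := card_zpowers_of_pow hp (omegaZ_elem.pow z hz) z1
  obtain ⟨Y, h1, h2, h3⟩ := (PElem.mk le_rfl he cX).exists_other hp cz
  obtain ⟨x, hx, x1⟩ := (bot_or_exists_ne_one Y).resolve_left (by rintro rfl; simp at h2)
  have eY : zpowers x = Y := eq_of_le_of_card_ge (zpowers_le.2 hx) (by rw [h2, he.card_zpowers hp (h1 hx) x1])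
  have eX := (PElem.mk le_rfl he cX).sup_eq_two hp h1 (zpowers_le.2 zX) h2 cz h3
  have l : A ⊓ C1(x) ≤ X := le_of_not_big hp le_top he hc hb le_top hA.elem.inf_left (by
    rw [← eX, ← eY]
    exact cent_symm (sup_le (cent_symm (by rw [C_zpowers]; exact inf_le_right)) (zpowers_le.2 (zc _))))
  have := nA.normal
  have := hA.abel.comm
  have c := card_le_cube (H := A) (MulAut.conjNormal x).toMonoidHom (fun a => Subtype.ext (by
    have : x * x * x = 1 := by rw [← he.pow x (h1 hx), pow_three']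
    calc _ = x * x * x * a * (x * x * x)⁻¹ := by simp [mul_assoc]
      _ = _ := by rw [this]; simp)) fun a => Subtype.ext (hA.elem.pow _ a.2)
  have c2 : 3 ^ 4 ≤ Nat.card (A ⊓ C1(x) : Subgroup G) ^ 3 := by
    refine (hA.card ▸ c).trans (Nat.pow_le_pow_left ?_ 3)
    rw [← card_map_subtype]
    refine card_le ?_
    rintro _ ⟨a, ha, rfl⟩
    have : x * a * x⁻¹ / a = 1 := by simpa using congrArg Subtype.val (MonoidHom.mem_ker.1 ha)
    exact ⟨a.2, mem_C1.2 (by rw [div_eq_one, mul_inv_eq_iff_eq_mul] at this; exact this.symm)⟩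
  rcases l.lt_or_eq with e | e
  · by_cases e0 : A ⊓ C1(x) = ⊥
    · rw [e0, card_bot] at c2; norm_num at c2
    · rw [card_eq_of_lt_sq hp cX e e0] at c2; norm_num at c2
  · exact hb ⟨A, e.ge.trans inf_le_left, le_top, hA.elem, by rw [hA.card]; norm_num⟩

end H17
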