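import Cfsg.Agent.H6.KpX

/-! If the normalizer of a Sylow `p`-subgroup has a normal complement, restriction injects the
characters of `p'`-degree (`H17.OdC.pC`). -/

set_option autoImplicit false

namespace H17.OdC

open Subgroup Cfsg H5
open scoped Classical

theorem pC {G : Type*} [Group G] [Finite G] (p : ℕ) [Fact p.Prime] (P : Sylow p G) (K : Subgroup G) [K.Normal]
    (h1 : K ⊓ normalizer ((P : Subgroup G) : Set G) = ⊥) (h2 : K ⊔ normalizer ((P : Subgroup G) : Set G) = ⊤) :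
    (∑ᶠ χ : {χ : IrrCharacter G // ¬ p ∣ charDegree (χ : G → ℂ)}, charDegree (χ.1 : G → ℂ) ^ 2) ≤
      ∑ᶠ η : {η : IrrCharacter ↥(normalizer ((P : Subgroup G) : Set G)) //
          ¬ p ∣ charDegree (η : ↥(normalizer ((P : Subgroup G) : Set G)) → ℂ)},
        charDegree (η.1 : ↥(normalizer ((P : Subgroup G) : Set G)) → ℂ) ^ 2 := by
  set N := normalizer ((P : Subgroup G) : Set G) with hN
  have hK : K ⊓ centralizer ((P : Subgroup G) : Set G) = ⊥ :=
    eq_bot_iff.2 ((inf_le_inf_left K (centralizer_le_normalizer ((P : Subgroup G) : Set G))).trans h1.le)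
  have hs : Function.Surjective ((QuotientGroup.mk' K).comp N.subtype) := by
    intro q
    obtain ⟨g, rfl⟩ := QuotientGroup.mk_surjective q
    have hg : g ∈ ((N ⊔ K : Subgroup G) : Set G) := by rw [sup_comm, h2]; trivial
    rw [mul_normal] at hg
    obtain ⟨n, hn, k, hk, rfl⟩ := hg
    exact ⟨⟨n, hn⟩, QuotientGroup.eq.2 (by simpa using hk)⟩
  have key : ∀ χ : {χ : IrrCharacter G // ¬ p ∣ charDegree (χ : G → ℂ)},
      ∃ χ' : G ⧸ K → ℂ, IsIrrCharacter (G ⧸ K) χ' ∧ ∀ g : G, χ' g = χ.1.1 g := fun χ =>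
    χ.1.2.exists_deflate K (H6.KpX.le_ker P.2 hK χ.1.2 χ.2)
  have hirr : ∀ χ : {χ : IrrCharacter G // ¬ p ∣ charDegree (χ : G → ℂ)},
      IsIrrCharacter N (fun x : N => χ.1.1 x) := fun χ => by
    obtain ⟨χ', a, b⟩ := key χ
    have := a.comp_surjective _ hs
    convert this using 1
    funext x
    exact (b x).symm
  have hdeg : ∀ χ : {χ : IrrCharacter G // ¬ p ∣ charDegree (χ : G → ℂ)},
      charDegree (fun x : N => χ.1.1 x) = charDegree χ.1.1 := fun χ => rfl
  let F : {χ : IrrCharacter G // ¬ p ∣ charDegree (χ : G → ℂ)} →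
      {η : IrrCharacter N // ¬ p ∣ charDegree (η : N → ℂ)} := fun χ => ⟨⟨_, hirr χ⟩, χ.2⟩
  have hF : Function.Injective F := by
    intro χ ψ h
    obtain ⟨χ', -, b⟩ := key χ
    obtain ⟨ψ', -, d⟩ := key ψ
    refine Subtype.ext (Subtype.ext (funext fun g => ?_))
    obtain ⟨n, hn⟩ := hs (g : G ⧸ K)
    have e : χ.1.1 n = ψ.1.1 n := congrFun (congrArg (fun η => η.1.1) h) n
    have hn' : ((n : G) : G ⧸ K) = g := hn
    rw [← b, ← d, ← hn', b, d, e]
  have := Fintype.ofFinite {χ : IrrCharacter G // ¬ p ∣ charDegree (χ : G → ℂ)}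
  have := Fintype.ofFinite {η : IrrCharacter N // ¬ p ∣ charDegree (η : N → ℂ)}
  rw [finsum_eq_sum_of_fintype, finsum_eq_sum_of_fintype]
  calc _ = ∑ η ∈ Finset.univ.image F, charDegree (η.1 : N → ℂ) ^ 2 := by
        rw [Finset.sum_image fun a _ b _ h => hF h]
        rfl
    _ ≤ _ := Finset.sum_le_sum_of_subset (Finset.subset_univ _)

end H17.OdC
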