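import Cfsg.Agent.H26.Qw0

/-! Piece `P8` of S1829: the centralizer of `V₁` is not the big case. -/

set_option autoImplicit false

namespace H17.Qw
open Subgroup DihedralGroup H326.Qw
universe u

theorem card_P : Nat.card (P : Subgroup TT) = 32 := by
  rw [Nat.card_eq_fintype_card]; decide +kernel

theorem V1_cases : ∀ t ∈ V1, t = 1 ∨ t = z1 ∨ t = v1 ∨ t = v1 * z1 := by decide +kernel
theorem V1_sq : ∀ t ∈ V1, t * t = 1 := by decide +kernel
theorem P_split : ∀ t ∈ P, (⟨t.a, 1, false⟩ : TT) ∈ V1 ∧ (⟨1, t.b, false⟩ : TT) ∈ Pr 0 4 ∧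
    t = (⟨t.a, 1, false⟩ : TT) * (⟨1, t.b, false⟩ : TT) := by decide +kernel
theorem P_u2 : ∀ t ∈ P, t * u2 = u2 * t → (⟨1, t.b, false⟩ : TT) * (⟨1, t.b, false⟩ : TT) = 1 := by
  decide +kernel
theorem P_comm : ∀ t ∈ P, z1 * t = t * z1 ∧ v1 * t = t * v1 := by decide +kernel
theorem P_A : ∀ t ∈ P, ∀ a ∈ A, t * a * t⁻¹ ∈ A := by
  intro t ht a ha
  obtain ⟨ta, tb, te⟩ := t
  obtain ⟨aa, ab, ae⟩ := a
  obtain ⟨rfl, h1, -⟩ := ht
  obtain ⟨rfl, h3, h4⟩ := ha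
  refine ⟨rfl, ?_, ?_⟩
  · show mD 2 (ta * aa * ta⁻¹) = true
    exact mD_mul _ _ _ (mD_mul _ _ _ h1 h3) (mD_inv _ _ h1)
  · show mD 2 (tb * ab * tb⁻¹) = true
    exact (by decide +kernel : ∀ tb ab : D, mD 2 ab = true → mD 2 (tb * ab * tb⁻¹) = true) tb ab h4
theorem A_split : ∀ t ∈ A, (⟨t.a, 1, false⟩ : TT) ∈ V1 ∧ (⟨t.b, 1, false⟩ : TT) ∈ V1 ∧
    t = (⟨t.a, 1, false⟩ : TT) * (s * (⟨t.b, 1, false⟩ : TT) * s⁻¹) := by decide +kernel
theorem V1_s : ∀ t ∈ V1, t ∈ A ∧ s * t * s⁻¹ ∈ A ∧ s⁻¹ * t * s ∈ Pr 0 4 := by decide +kernel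
theorem U2_04 : ∀ t ∈ U2, t ∈ Pr 0 4 := by decide +kernel

theorem u2_A : u2 ∉ A := by decide +kernel
theorem arith (k : ℕ) (h : k ∣ 15) (h1 : k ≠ 1) (h5 : k ≠ 5) : 3 ^ 2 ∣ 96 * k := by
  have hle : k ≤ 15 := Nat.le_of_dvd (by norm_num) h
  interval_cases k <;> simp_all

set_option maxHeartbeats 1600000 in
theorem p8 : P8.{u} := by
  intro G _ _ ψ x c f p y ⟨hcard, h9, h3⟩
  classical
  have hz1 : z1 ∈ V1 := by decide +kernel
  have hv1 : v1 ∈ V1 := by decide +kernel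
  set C := CV ψ with hC
  have memC : ∀ g, g ∈ C ↔ ψ z1 * g = g * ψ z1 ∧ ψ v1 * g = g * ψ v1 := by
    intro g
    rw [hC, CV, mem_centralizer_iff]
    simp
  set V : Subgroup G := V1.map ψ with hV
  -- `V` is centralized by `C`
  have hVC : ∀ w ∈ V, ∀ g ∈ C, w * g = g * w := by
    rintro _ ⟨t, ht, rfl⟩ g hg
    obtain ⟨a, b⟩ := (memC g).1 hg
    rcases V1_cases t ht with rfl | rfl | rfl | rfl
    · simp
    · exact a
    · exact b
    · rw [map_mul, mul_assoc, a, ← mul_assoc, b, mul_assoc]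
  have hVsq : ∀ w ∈ V, w * w = 1 := by
    rintro _ ⟨t, ht, rfl⟩
    rw [← map_mul, V1_sq t ht, map_one]
  have hxV : ∀ w ∈ V, x * w * x⁻¹ ∈ V := by
    rintro _ ⟨t, ht, rfl⟩
    rcases V1_cases t ht with rfl | rfl | rfl | rfl
    · simp
    · rw [c.xz]; exact ⟨_, hv1, rfl⟩
    · rw [c.xv]; exact ⟨_, V1.mul_mem hv1 hz1, rfl⟩
    · have : x * ψ (v1 * z1) * x⁻¹ = (x * ψ v1 * x⁻¹) * (x * ψ z1 * x⁻¹) := by rw [map_mul]; group
      rw [this, c.xz, c.xv, ← map_mul]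
      exact ⟨_, V1.mul_mem (V1.mul_mem hv1 hz1) hv1, rfl⟩
  have hxN : x ∈ normalizer (V : Set G) := mem_normalizer_fintype hxV
  have hCN : ∀ g ∈ C, g ∈ normalizer (V : Set G) := fun g hg =>
    mem_normalizer_fintype fun w hw => by
      rw [← hVC w hw g hg, mul_inv_cancel_right]; exact hw
  have hxC : ∀ g ∈ C, x * g * x⁻¹ ∈ C := by
    intro g hg
    have key : ∀ w ∈ V, w * (x * g * x⁻¹) = x * g * x⁻¹ * w := by
      intro w hw
      have h1 : x⁻¹ * w * x ∈ V := (mem_normalizer_iff''.1 hxN w).1 hw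
      have h2 := hVC _ h1 g hg
      calc w * (x * g * x⁻¹) = x * (x⁻¹ * w * x * g) * x⁻¹ := by group
        _ = x * (g * (x⁻¹ * w * x)) * x⁻¹ := by rw [h2]
        _ = _ := by group
    exact (memC _).2 ⟨key _ ⟨_, hz1, rfl⟩, key _ ⟨_, hv1, rfl⟩⟩
  have hPC : ∀ t ∈ P, ψ t ∈ C := fun t ht =>
    (memC _).2 ⟨by rw [← map_mul, (P_comm t ht).1, map_mul], by rw [← map_mul, (P_comm t ht).2, map_mul]⟩
  have hx1 : x ∉ C := by
    intro h
    have h1 := c.xz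
    rw [← ((memC x).1 h).1, mul_inv_cancel_right] at h1
    exact absurd (c.inj h1) (by decide +kernel)
  -- the subgroup `L`
  let L : Subgroup G :=
    { carrier := {g | g ∈ C ∧ x * g * x⁻¹ * g⁻¹ ∈ V}
      one_mem' := ⟨C.one_mem, by simp⟩
      mul_mem' := by
        rintro a b ⟨ha, ha'⟩ ⟨hb, hb'⟩
        refine ⟨C.mul_mem ha hb, ?_⟩
        have h1 := hVC _ hb' a ha
        have : x * (a * b) * x⁻¹ * (a * b)⁻¹ = (x * a * x⁻¹ * a⁻¹) * (a * (x * b * x⁻¹ * b⁻¹)) * a⁻¹ := by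
          group
        rw [this, ← h1]
        simpa only [mul_assoc, mul_inv_cancel, mul_one] using V.mul_mem ha' hb'
      inv_mem' := by
        rintro a ⟨ha, ha'⟩
        refine ⟨C.inv_mem ha, ?_⟩
        have h1 := hVC _ (V.inv_mem ha') a ha
        have : x * a⁻¹ * x⁻¹ * a⁻¹⁻¹ = a⁻¹ * ((x * a * x⁻¹ * a⁻¹)⁻¹ * a) := by group
        rw [this, h1, inv_mul_cancel_left]
        exact V.inv_mem ha' }
  have memL : ∀ g, g ∈ L ↔ g ∈ C ∧ x * g * x⁻¹ * g⁻¹ ∈ V := fun g => Iff.rfl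
  have hLC : L ≤ C := fun g hg => hg.1
  have hPL : ∀ t ∈ P, ψ t ∈ L := by
    intro t ht
    refine ⟨hPC t ht, ?_⟩
    obtain ⟨h1, h2, h3⟩ := P_split t ht
    have h4 := (c.xD _ h2).eq
    rw [h3, map_mul]
    set w := ψ (⟨t.a, 1, false⟩ : TT)
    set d := ψ (⟨1, t.b, false⟩ : TT)
    have hw : w ∈ V := ⟨_, h1, rfl⟩
    have : x * (w * d) * x⁻¹ * (w * d)⁻¹ = (x * w * x⁻¹) * (x * d) * x⁻¹ * d⁻¹ * w⁻¹ := by group
    rw [this, h4]
    simpa only [mul_assoc, mul_inv_cancel_left] using V.mul_mem (hxV w hw) (V.inv_mem hw)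
  set x2 := ψ s * x * (ψ s)⁻¹ with hx2
  have hx2V : ∀ t ∈ V1, ψ t * x2 = x2 * ψ t := by
    intro t ht
    have h1 := (c.xD _ (V1_s t ht).2.2).eq
    rw [map_mul, map_mul, map_inv] at h1
    calc ψ t * x2 = ψ s * ((ψ s)⁻¹ * ψ t * ψ s * x) * (ψ s)⁻¹ := by rw [hx2]; group
      _ = ψ s * (x * ((ψ s)⁻¹ * ψ t * ψ s)) * (ψ s)⁻¹ := by rw [h1]
      _ = _ := by rw [hx2]; group
  have hx2C : x2 ∈ C := (memC _).2 ⟨hx2V _ hz1, hx2V _ hv1⟩
  have hx2L : x2 ∈ L := ⟨hx2C, by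
    have h : x * x2 = x2 * x := c.xx.eq
    rw [h, mul_inv_cancel_right, mul_inv_cancel]; exact V.one_mem⟩
  have hxne : x ≠ 1 := fun h => hx1 (h ▸ C.one_mem)
  have hox2 : orderOf x2 = 3 := by
    have : Fact (Nat.Prime 3) := ⟨Nat.prime_three⟩
    apply orderOf_eq_prime
    · rw [hx2, conj_pow, c.x3]; simp
    · intro h
      apply hxne
      calc x = (ψ s)⁻¹ * x2 * ψ s := by rw [hx2]; group
        _ = 1 := by rw [h]; simp
  have h96 : ∀ H : Subgroup G, (∀ t ∈ P, ψ t ∈ H) → x2 ∈ H → 96 ∣ Nat.card H := by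
    intro H h1 h2
    have a1 : 32 ∣ Nat.card H := by
      have : P.map ψ ≤ H := by rintro _ ⟨t, ht, rfl⟩; exact h1 t ht
      have h := card_dvd_of_le this
      rwa [card_map_of_injective c.inj, card_P] at h
    have a2 : 3 ∣ Nat.card H := by
      rw [← hox2]; exact H.orderOf_dvd_natCard h2
    exact (show Nat.Coprime 32 3 by decide).mul_dvd_of_dvd_of_dvd a1 a2
  obtain ⟨n, hnC, hnu, hnU⟩ := p.g
  have hnL : n ∈ L := by
    refine ⟨hnC, ?_⟩
    have hkC : n⁻¹ * (x * n * x⁻¹) ∈ C := C.mul_mem (C.inv_mem hnC) (hxC n hnC)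
    have hkU : ∀ t ∈ U2, n⁻¹ * (x * n * x⁻¹) * ψ t = ψ t * (n⁻¹ * (x * n * x⁻¹)) := by
      intro t ht
      obtain ⟨t', ht', e⟩ := hnU t ht
      have e1 := (c.xD _ (U2_04 t ht)).inv_left.eq
      have e2 := (c.xD _ (U2_04 t' ht')).eq
      calc n⁻¹ * (x * n * x⁻¹) * ψ t = n⁻¹ * x * n * (x⁻¹ * ψ t) := by group
        _ = n⁻¹ * x * (n * ψ t * n⁻¹) * n * x⁻¹ := by rw [e1]; group
        _ = n⁻¹ * (x * ψ t') * n * x⁻¹ := by rw [e]; group
        _ = n⁻¹ * (n * ψ t * n⁻¹) * x * n * x⁻¹ := by rw [e2, e]; group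
        _ = _ := by group
    obtain ⟨t, ht, e⟩ := y _ hkC (hkU z2 (by decide +kernel))
    have hu : t * u2 = u2 * t := c.inj (by rw [map_mul, map_mul, ← e]; exact hkU u2 (by decide +kernel))
    obtain ⟨h1, h2, h3⟩ := P_split t ht
    have h4 := (c.xD _ h2).eq
    have h5 := congrArg ψ (P_u2 t ht hu)
    have h6 : ψ (⟨1, t.b, false⟩ : TT) ∈ C := hPC _ (by
      obtain ⟨-, -, h⟩ := h2
      exact ⟨rfl, mD_one _, h⟩)
    rw [map_mul, map_one] at h5
    rw [h3, map_mul] at e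
    set w := ψ (⟨t.a, 1, false⟩ : TT)
    set d := ψ (⟨1, t.b, false⟩ : TT)
    have hw : w ∈ V := ⟨_, h1, rfl⟩
    have hw1 := hxV w hw
    have hw2 := hxV _ hw1
    have e1 : x * n * x⁻¹ = n * (w * d) := by rw [← e]; group
    have hd : x * d * x⁻¹ = d := by rw [h4]; group
    have e2 : x * (x * n * x⁻¹) * x⁻¹ = n * (w * d) * ((x * w * x⁻¹) * d) := by
      calc x * (x * n * x⁻¹) * x⁻¹ = x * (n * (w * d)) * x⁻¹ := by rw [e1]
        _ = (x * n * x⁻¹) * ((x * w * x⁻¹) * (x * d * x⁻¹)) := by group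
        _ = _ := by rw [e1, hd]
    have e3 : n = n * (w * d) * ((x * w * x⁻¹) * d) * ((x * (x * w * x⁻¹) * x⁻¹) * d) := by
      calc n = x ^ 3 * n * (x ^ 3)⁻¹ := by rw [c.x3]; group
        _ = x * (x * (x * n * x⁻¹) * x⁻¹) * x⁻¹ := by
          rw [pow_three]; simp only [mul_inv_rev, mul_assoc]
        _ = x * (n * (w * d) * ((x * w * x⁻¹) * d)) * x⁻¹ := by rw [e2]
        _ = (x * n * x⁻¹) * ((x * w * x⁻¹) * (x * d * x⁻¹)) *
            ((x * (x * w * x⁻¹) * x⁻¹) * (x * d * x⁻¹)) := by group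
        _ = _ := by rw [e1, hd]
    set w1 := x * w * x⁻¹
    set w2 := x * w1 * x⁻¹
    have c1 := hVC _ hw1 d h6
    have hdV : d ∈ V := by
      have e4 : w * (d * (w1 * d)) * w2 * d = 1 := by
        apply mul_left_cancel (a := n)
        rw [mul_one]
        conv_rhs => rw [e3]
        group
      rw [c1, ← mul_assoc d d, h5, one_mul] at e4
      have := eq_inv_of_mul_eq_one_right e4
      rw [this]
      exact V.inv_mem (V.mul_mem (V.mul_mem hw hw1) hw2)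
    rw [e1, ← hVC _ (V.mul_mem hw hdV) n hnC, mul_inv_cancel_right]
    exact V.mul_mem hw hdV
  have hL9 : 3 ^ 2 ∣ Nat.card L := by
    obtain ⟨k, hk⟩ := h96 L hPL hx2L
    have hm : L.relIndex C * Nat.card L = 1440 := by
      rw [← hcard, relIndex, ← Nat.card_congr (subgroupOfEquivOfLe hLC).toEquiv, index_mul_card]
    have hk15 : k ∣ 15 := Dvd.intro_left (L.relIndex C) (by rw [hk] at hm; nlinarith)
    have hne3 := h3 L hLC
    have hk1 : k ≠ 1 := by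
      rintro rfl
      let N : Subgroup G := L ⊓ normalizer ((A.map ψ : Subgroup G) : Set G)
      have hN : 96 ∣ Nat.card N := by
        apply h96
        · intro t ht
          refine ⟨hPL t ht, mem_normalizer_fintype ?_⟩
          rintro _ ⟨a, ha, rfl⟩
          exact ⟨_, P_A t ht a ha, by simp⟩
        · refine ⟨hx2L, mem_normalizer_fintype ?_⟩
          rintro _ ⟨a, ha, rfl⟩
          obtain ⟨h1, h2, h3⟩ := A_split a ha
          obtain ⟨t', ht', e⟩ := hxV _ ⟨_, h2, rfl⟩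
          refine ⟨_, A.mul_mem (V1_s _ h1).1 (V1_s _ ht').2.1, ?_⟩
          conv_rhs => rw [h3]
          simp only [map_mul, map_inv]
          rw [e, ← mul_assoc x2, ← hx2V _ h1, hx2]
          group
      have hNL : N = L := eq_of_le_of_card_ge inf_le_left (by
        rw [hk]; exact Nat.le_of_dvd Nat.card_pos hN)
      have hn : n ∈ N := hNL ▸ hnL
      have h1 : ψ u2 ∈ A.map ψ := (mem_normalizer_iff.1 hn.2 _).2 (by
        rw [hnu]; exact ⟨_, (by decide +kernel : z2 ∈ A), rfl⟩)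
      obtain ⟨a, ha, e⟩ := h1
      rw [c.inj e] at ha
      exact u2_A ha
    have hk5 : k ≠ 5 := by
      rintro rfl
      rw [hk] at hm
      omega
    rw [hk]
    exact arith k hk15 hk1 hk5
  have : Fact (Nat.Prime 3) := ⟨Nat.prime_three⟩
  obtain ⟨R1, hR1⟩ := Sylow.exists_subgroup_card_pow_prime 3 hL9
  set R0 : Subgroup G := R1.map L.subtype with hR0
  have hR0c : Nat.card R0 = 3 ^ 2 := by rw [hR0, card_map_of_injective L.subtype_injective, hR1]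
  have hR0L : R0 ≤ L := map_subtype_le _
  have hcomm : ∀ a ∈ R0, ∀ b ∈ R0, a * b = b * a := fun a ha b hb =>
    congrArg Subtype.val (IsPGroup.commutative_of_card_eq_prime_sq hR0c (⟨a, ha⟩ : R0) ⟨b, hb⟩)
  have hexp : ∀ a ∈ R0, a ^ 3 = 1 := fun a ha => h9 a (hLC (hR0L ha)) (by
    have := congrArg Subtype.val (pow_card_eq_one' (x := (⟨a, ha⟩ : R0)))
    rw [hR0c] at this
    exact this)
  have hxR : ∀ a ∈ R0, Commute a x := by
    intro a ha
    obtain ⟨h1, h2⟩ := hR0L ha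
    have h3 : Commute (x * a * x⁻¹ * a⁻¹) a := hVC _ h2 a h1
    have h4 : (x * a * x⁻¹ * a⁻¹ * a) ^ 3 = 1 := by
      rw [inv_mul_cancel_right, conj_pow, hexp a ha]; simp
    rw [h3.mul_pow, hexp a ha, mul_one, pow_succ, pow_two, hVsq _ h2, one_mul] at h4
    have : x * a = a * x := by
      calc x * a = (x * a * x⁻¹ * a⁻¹) * (a * x) := by group
        _ = _ := by rw [h4, one_mul]
    exact this.symm
  let R : Subgroup G :=
    { carrier := {g | ∃ r ∈ R0, ∃ i : ℤ, g = r * x ^ i}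
      one_mem' := ⟨1, R0.one_mem, 0, by simp⟩
      mul_mem' := by
        rintro _ _ ⟨a, ha, i, rfl⟩ ⟨b, hb, j, rfl⟩
        refine ⟨a * b, R0.mul_mem ha hb, i + j, ?_⟩
        rw [zpow_add, mul_assoc, ← mul_assoc (x ^ i), ← ((hxR b hb).zpow_right i).eq]
        group
      inv_mem' := by
        rintro _ ⟨a, ha, i, rfl⟩
        refine ⟨a⁻¹, R0.inv_mem ha, -i, ?_⟩
        rw [((hxR a ha).zpow_right i).eq]
        group }
  have hR3 : ∀ g ∈ R, g ^ 3 = 1 := by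
    rintro _ ⟨a, ha, i, rfl⟩
    rw [((hxR a ha).zpow_right i).mul_pow, hexp a ha, one_mul, ← zpow_natCast, ← zpow_mul, mul_comm,
      zpow_mul, zpow_natCast, c.x3, one_zpow]
  have hlt := c.qt R (by
      rintro _ ⟨a, ha, i, rfl⟩ t ht
      have h1 : a * x ^ i ∈ normalizer (V : Set G) :=
        mul_mem (hCN a (hLC (hR0L ha))) (zpow_mem hxN i)
      obtain ⟨t', ht', e⟩ := (mem_normalizer_iff.1 h1 (ψ t)).1 ⟨t, ht, rfl⟩
      exact ⟨t', ht', e.symm⟩) (by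
      rintro _ ⟨a, ha, i, rfl⟩ _ ⟨b, hb, j, rfl⟩
      have h1 : Commute a b := hcomm a ha b hb
      exact (Commute.mul_left (h1.mul_right ((hxR a ha).zpow_right j))
        (((hxR b hb).zpow_right i).symm.mul_right (Commute.zpow_zpow_self x i j))).eq) hR3
  have hp : IsPGroup 3 R := fun g => ⟨1, Subtype.ext (by simpa using hR3 g.1 g.2)⟩
  obtain ⟨k, hk⟩ := IsPGroup.iff_card.1 hp
  have hle : R0 ≤ R := fun a ha => ⟨a, ha, 0, by simp⟩
  have hk2 : k ≤ 2 := by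
    by_contra h
    have : 3 ^ 3 ≤ 3 ^ k := Nat.pow_le_pow_right (by norm_num) (by omega)
    omega
  have heq : R0 = R := eq_of_le_of_card_ge hle (by
    rw [hk, hR0c]; exact Nat.pow_le_pow_right (by norm_num) hk2)
  have hxR' : x ∈ R := ⟨1, R0.one_mem, 1, by simp⟩
  exact hx1 (hLC (hR0L (heq ▸ hxR')))

end H17.Qw
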