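import Cfsg.Agent.H4.Frattini
import Cfsg.Agent.H4.Replace
import Cfsg.Agent.H17.Coprime
import Cfsg.Agent.S1757

/-! A large elementary abelian TI 2-subgroup `V` (`Hy V`): `PP V = C_Q(V)` is special with centre `V`
(`Hy.comm_mem`, `Hy.sq_mem`, `Hy.mem_of_stab`), and conjugates of `V` in `Q` (`Out V U`). -/

set_option autoImplicit false

namespace H17.TV

export H26 (mem_cj conj_mem_cj cj_one cj_mul cj_inv_cj cj_cj_inv cj_mono cj_le_cj_iff cj_sup cj_inf cj_bot cj_eq_bot_iff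
  cj_commutator card_cj cj_centralizer cj_normalizer cj_eq_of_mem le_normalizer_of_le_centralizer)

open Subgroup H26 H4 Cfsg
open scoped commutatorElement

variable {G : Type*} [Group G] {V U : Subgroup G} {x y u v g : G}

/-- The standing hypothesis. -/
structure Hy (V : Subgroup G) : Prop where
  ea : IsElementaryAbelian 2 V
  chp : CharPOf 2 (𝐍 V)
  mx : ∀ A, V ≤ A → A ≤ 𝐍 V → IsMulCommutative A → 𝐍 V ≤ 𝐍 A → A = V
  ti : ∀ x, cj x V = V ∨ cj x V ⊓ V = ⊥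

/-- `C_Q(V)` -/
def PP (V : Subgroup G) : Subgroup G := pCoreOf 2 (𝐍 V) ⊓ 𝐂 V

theorem cj_PP (g : G) (V : Subgroup G) : cj g (PP V) = PP (cj g V) := by
  rw [PP, cj_inf, cj_pCoreOf, cj_normalizer, cj_centralizer, PP]

theorem PP_le : PP V ≤ 𝐍 V := inf_le_left.trans (pCoreOf_le 2 _)

theorem PP_c : PP V ≤ 𝐂 V := inf_le_right

theorem PP_two : IsPGroup 2 (PP V) := (isPGroup_pCoreOf 2 _).to_le inf_le_left

theorem PP_n : 𝐍 V ≤ 𝐍 (PP V) :=
  le_normalizer_inf (le_normalizer_pCoreOf 2 _) (normalizer_le_normalizer_centralizer V)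

theorem comm_one {H : Subgroup G} (hx : x ∈ 𝐂 H) (hy : y ∈ H) : ⁅x, y⁆ = 1 :=
  commutatorElement_eq_one_iff_mul_comm.2 (mem_centralizer_iff.1 hx y hy).symm

theorem mem_c {H : Subgroup G} (h : ∀ y ∈ H, ⁅x, y⁆ = 1) : x ∈ 𝐂 H :=
  mem_centralizer_iff.2 fun y hy => (commutatorElement_eq_one_iff_mul_comm.1 (h y hy)).symm

theorem comm_r {H : Subgroup G} (hx : x ∈ 𝐍 H) (hy : y ∈ H) : ⁅x, y⁆ ∈ H :=
  mul_mem (conj_mem_of_mem_normalizer hx hy) (inv_mem hy)

theorem comm_l {H : Subgroup G} (hx : x ∈ H) (hy : y ∈ 𝐍 H) : ⁅x, y⁆ ∈ H := by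
  rw [← commutatorElement_inv]; exact inv_mem (comm_r hy hx)

namespace Hy

theorem conj (h : Hy V) (g : G) : Hy (cj g V) where
  ea := elemAb_cj h.ea g
  chp := cj_normalizer g V ▸ h.chp.cj g
  mx A h1 h2 h3 h4 := by
    rw [eq_comm, cj_eq_iff_eq_cj, eq_comm]
    refine h.mx _ (cj_le_iff.1 h1) (by rwa [← le_cj_iff, cj_normalizer]) (comm_map h3 _) ?_
    rwa [← cj_normalizer, ← cj_le_iff, cj_normalizer]
  ti x := by
    have := h.ti (g⁻¹ * x * g)
    rwa [← cj_inj (g := g), ← cj_eq_bot_iff (g := g), cj_inf, ← cj_mul, ← mul_assoc, ← mul_assoc, mul_inv_cancel,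
      one_mul, cj_mul] at this

theorem eq (h : Hy V) {a b w : G} (h1 : w ∈ cj a V) (h2 : w ∈ cj b V) (hw : w ≠ 1) : cj a V = cj b V := by
  have := (h.conj b).ti (a * b⁻¹)
  rw [← cj_mul, inv_mul_cancel_right] at this
  exact this.resolve_right fun e => hw (mem_bot.1 (e ▸ ⟨h1, h2⟩))

theorem mem_n (h : Hy V) (hv : v ∈ V) (h1 : v ≠ 1) (hx : x * v * x⁻¹ ∈ V) : x ∈ 𝐍 V := by
  rw [← cj_eq_iff, h.eq (b := 1) (conj_mem_cj x hv) (by rwa [cj_one]) (by simpa using h1), cj_one]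

theorem sq (h : Hy V) (hv : v ∈ V) : v * v = 1 := by rw [← pow_two]; exact h.ea.2 v hv

theorem inv (h : Hy V) (hv : v ∈ V) : v⁻¹ = v := inv_eq_of_mul_eq_one_right (h.sq hv)

theorem le (h : Hy V) : V ≤ PP V :=
  le_inf (le_pCoreOf (elemAb_isPGroup h.ea) le_normalizer le_rfl) (elemAb_le_centralizer h.ea)

theorem cen (h : Hy V) (hx : x ∈ PP V) (hc : x ∈ 𝐂 (PP V)) : x ∈ V :=
  h.mx (PP V ⊓ 𝐂 (PP V)) (le_inf h.le (le_centralizer_iff.1 PP_c)) (inf_le_left.trans PP_le)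
    (comm_inf_centralizer _) (le_normalizer_inf PP_n (le_normalizer_centralizer PP_n)) ▸ ⟨hx, hc⟩

variable [Finite G]

theorem mem_of_stab (h : Hy V) (hc : y ∈ 𝐂 V) (hs : ∀ p ∈ PP V, ⁅p, y⁆ ∈ V) : y ∈ PP V := by
  let Y : Subgroup G := 𝐂 V ⊓ commStab (PP V) V
  have cn : 𝐂 V ≤ 𝐍 V := le_normalizer_of_le_centralizer le_rfl
  have y1 : Y ≤ 𝐍 V := inf_le_left.trans cn
  have y2 : 𝐍 V ≤ 𝐍 Y := fun m hm => mem_normalizer_of_conj_mem fun z hz =>
    ⟨conj_mem_of_mem_normalizer (normalizer_le_normalizer_centralizer V hm) hz.1,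
      mul_mem (mul_mem hm hz.2.1) (inv_mem hm), fun a ha => by
        have := conj_mem_of_mem_normalizer hm (hz.2.2 _ (conj_mem_of_mem_normalizer' (PP_n hm) ha))
        convert this using 1
        simp only [commutatorElement_def]; group⟩
  have y3 : pResidualOf 2 Y ≤ 𝐂 (PP V) := pResidualOf_le_centralizer_of_stab (elemAb_isPGroup h.ea)
    (by rw [commutator_comm]; exact commutator_le.2 fun a ha b hb => ha.2.2 b hb) inf_le_left
  have y4 : pResidualOf 2 Y ≤ 𝐂 (pCoreOf 2 (𝐍 V)) := le_centralizer_of_stab (pResidualOf_pResidualOf 2 Y) PP_two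
    (le_inf (commutator_le_of_le_normalizer ((pResidualOf_le 2 Y).trans (y1.trans (le_normalizer_pCoreOf 2 _))))
      ((commutator_mono le_rfl ((pResidualOf_le 2 Y).trans inf_le_left)).trans (commutator_le_of_le_normalizer'
        ((pCoreOf_le 2 _).trans (normalizer_le_normalizer_centralizer V))))) y3
  have y5 : IsPGroup 2 Y := isPGroup_of_pResidualOf_le (isPGroup_pCoreOf 2 (𝐍 V))
    ((le_inf ((pResidualOf_le 2 Y).trans y1) y4).trans h.chp)
  exact ⟨le_pCoreOf y5 y1 y2 ⟨hc, cn hc, fun a ha => by rw [← commutatorElement_inv]; exact inv_mem (hs a ha)⟩, hc⟩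

theorem comm_mem (h : Hy V) (hx : x ∈ PP V) (hy : y ∈ PP V) : ⁅x, y⁆ ∈ V := by
  let Z : Subgroup G := PP V ⊓ commStab (PP V) V
  have z2 : 𝐍 V ≤ 𝐍 Z := fun m hm => mem_normalizer_of_conj_mem fun z hz =>
    ⟨conj_mem_of_mem_normalizer (PP_n hm) hz.1, mul_mem (mul_mem hm hz.2.1) (inv_mem hm), fun a ha => by
        have := conj_mem_of_mem_normalizer hm (hz.2.2 _ (conj_mem_of_mem_normalizer' (PP_n hm) ha))
        convert this using 1
        simp only [commutatorElement_def]; group⟩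
  have z1 : ⁅Z, PP V⁆ ≤ V := commutator_le.2 fun a ha b hb => ha.2.2 b hb
  have z3 : 𝐍 V ≤ 𝐍 (PP V ⊓ 𝐂 Z) := le_normalizer_inf PP_n (le_normalizer_centralizer z2)
  have z4 : PP V ⊓ 𝐂 Z ≤ V := by
    by_contra c
    obtain ⟨M, m1, m2, -, m3⟩ := H17.exists_not_le_commutator_le (PP_two.to_le inf_le_left) PP_two (PP_le.trans z3) c
    have e := h.mx (Z ⊓ 𝐂 Z) (le_inf (le_inf h.le (le_commStab_iff.2 ⟨le_normalizer,
      commutator_le_of_le_normalizer PP_le⟩)) (le_centralizer_iff.1 (inf_le_left.trans PP_c)))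
      (inf_le_left.trans (inf_le_left.trans PP_le)) (comm_inf_centralizer _)
      (le_normalizer_inf z2 (le_normalizer_centralizer z2))
    exact m2 ((le_inf (le_inf (m1.trans inf_le_left) (le_commStab_iff.2 ⟨m1.trans (inf_le_left.trans PP_le), m3⟩))
      (m1.trans inf_le_right)).trans e.le)
  have vc : V ≤ 𝐂 (PP V) := le_centralizer_iff.1 PP_c
  exact z4 ⟨commutator_le_self _ (commutator_mem_commutator hx hy), three_subgroups_centralizer
    (commutator_comm Z _ ▸ z1.trans vc) (z1.trans vc) (commutator_mem_commutator hx hy)⟩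

theorem comm_mul (h : Hy V) {z : G} (hx : x ∈ PP V) (hy : y ∈ PP V) (hz : z ∈ PP V) : ⁅x * y, z⁆ = ⁅y, z⁆ * ⁅x, z⁆ := by
  rw [commutatorElement_mul_left_eq_conj_mul, ← mem_centralizer_iff.1 (PP_c hx) _ (h.comm_mem hy hz),
    mul_inv_cancel_right]

theorem sq_mem (h : Hy V) (hx : x ∈ PP V) : x * x ∈ V :=
  h.cen (mul_mem hx hx) (mem_c fun _ hy => by rw [h.comm_mul hx hx hy, h.sq (h.comm_mem hx hy)])

theorem comm_symm (h : Hy V) (hx : x ∈ PP V) (hy : y ∈ PP V) : ⁅x, y⁆ = ⁅y, x⁆ := by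
  rw [← commutatorElement_inv, h.inv (h.comm_mem hy hx)]

/-- `y ↦ ⁅y, x⁆` -/
def ad (h : Hy V) {A : Subgroup G} (hA : A ≤ PP V) (hx : x ∈ PP V) : A →* V :=
  MonoidHom.mk' (fun y => ⟨⁅(y : G), x⁆, h.comm_mem (hA y.2) hx⟩) fun a b => Subtype.ext (by
    simp only [coe_mul]
    rw [h.comm_mul (hA a.2) (hA b.2) hx, comm_of h.ea.1 (h.comm_mem (hA a.2) hx) (h.comm_mem (hA b.2) hx)])

end Hy

end H17.TV
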