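import Cfsg.Agent.H17.TV1

/-! Conjugates `U ≠ V` of a large TI subgroup `V` lying in `O₂(N(V))` (`Out V U`): `W = V ⊔ U` is partitioned by the
`PP V`-conjugates of `U` and `V`, `Z(C_P(U)) ≤ W` (`Out.zd`). -/

set_option autoImplicit false

namespace H17.TV

open Subgroup H26 H4 Cfsg
open scoped commutatorElement

variable {G : Type*} [Group G] {V U : Subgroup G} {x y u v p w : G}

/-- `U` is a conjugate of `V`, different from `V`, in `O₂(N(V))` -/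
structure Out (V U : Subgroup G) : Prop where
  hy : Hy V
  cn : ∃ g, U = cj g V
  ne : U ≠ V
  le : U ≤ pCoreOf 2 (𝐍 V)

theorem comm_mul_left_of (h : ⁅x, p⁆ = 1) : ⁅y * x, p⁆ = ⁅y, p⁆ := by
  rw [commutatorElement_mul_left_eq_conj_mul, h]; simp

namespace Out

theorem hu (h : Out V U) : Hy U := by obtain ⟨g, e⟩ := h.cn; exact e ▸ h.hy.conj g

theorem dis (h : Out V U) (h1 : x ∈ U) (h2 : x ∈ V) : x = 1 := by
  obtain ⟨g, e⟩ := h.cn
  exact mem_bot.1 (((h.hy.ti g).resolve_left (e ▸ h.ne)).le ⟨e ▸ h1, h2⟩)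

theorem card (h : Out V U) : Nat.card U = Nat.card V := by obtain ⟨g, e⟩ := h.cn; rw [e, card_cj]

theorem exu (h : Out V U) : ∃ u ∈ U, u ≠ 1 := by
  obtain ⟨g, e⟩ := h.cn
  by_contra c
  have : U = ⊥ := eq_bot_iff.2 fun u hu => by_contra fun k => c ⟨u, hu, k⟩
  exact h.ne (by rw [this, cj_eq_bot_iff.1 (e.symm.trans this)])

theorem exv (h : Out V U) : ∃ v ∈ V, v ≠ 1 := by
  obtain ⟨g, e⟩ := h.cn
  obtain ⟨u, hu, k⟩ := h.exu
  exact ⟨_, mem_cj.1 (e ▸ hu), by simpa [mul_assoc, inv_mul_eq_one] using k⟩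

theorem conj (h : Out V U) {m : G} (hm : m ∈ 𝐍 V) : Out V (cj m U) where
  hy := h.hy
  cn := by obtain ⟨g, e⟩ := h.cn; exact ⟨m * g, by rw [cj_mul, e]⟩
  ne e := h.ne (by rw [cj_eq_iff_eq_cj.1 e, cj_eq_iff.2 (inv_mem hm)])
  le := cj_le_of_mem_normalizer h.le (le_normalizer_pCoreOf 2 _ hm)

theorem ucn (h : Out V U) (x : G) : ∃ y, cj x V = cj y U := by
  obtain ⟨g, e⟩ := h.cn
  exact ⟨x * g⁻¹, by rw [e, ← cj_mul, inv_mul_cancel_right]⟩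

variable [Finite G]

theorem up (h : Out V U) : U ≤ PP V := by
  refine le_inf h.le (le_centralizer_iff.1 (commutator_eq_bot_iff_le_centralizer.1 ?_))
  exact Cfsg.Agent.S1757.result 2 V U (elemAb_isPGroup h.hy.ea) (elemAb_isPGroup h.hu.ea) h.hy.ti h.hu.ti h.card.ge
    (eq_bot_iff.2 fun x hx => h.dis hx.2 hx.1) (h.le.trans (pCoreOf_le 2 _))

theorem uc (h : Out V U) : U ≤ 𝐂 V := h.up.trans PP_c

theorem vc (h : Out V U) : V ≤ 𝐂 U := le_centralizer_iff.1 h.uc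

theorem c_of_n (h : Out V U) (hp : p ∈ PP V) (hn : p ∈ 𝐍 U) : p ∈ 𝐂 U :=
  mem_c fun _ hu => h.dis (comm_r hn hu) (h.hy.comm_mem hp (h.up hu))

theorem c_of_c (h : Out V U) (hp : p ∈ PP V) (hu : u ∈ U) (h1 : u ≠ 1) (hc : ⁅u, p⁆ = 1) : p ∈ 𝐂 U :=
  h.c_of_n hp (h.hu.mem_n hu h1 (by
    rwa [← commutatorElement_eq_one_iff_mul_comm.1 hc, mul_inv_cancel_right]))

theorem onto (h : Out V U) (hp : p ∈ PP V) (hn : p ∉ 𝐂 U) (hv : v ∈ V) : ∃ u ∈ U, ⁅u, p⁆ = v := by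
  have hf : Function.Injective (h.hy.ad h.up hp) := (injective_iff_map_eq_one _).2 fun a e =>
    Subtype.ext (by_contra fun k => hn (h.c_of_c hp a.2 k (congrArg Subtype.val e)))
  obtain ⟨a, e⟩ := (hf.bijective_of_nat_card_le h.card.ge).2 ⟨v, hv⟩
  exact ⟨a, a.2, congrArg Subtype.val e⟩

theorem one_of_all (h : Out V U) (hu : u ∈ U) (hc : ∀ m ∈ 𝐍 V, u ∈ 𝐂 (cj m U)) : u = 1 := by
  let B : Subgroup G := V ⊔ ⨆ m : 𝐍 V, cj (m : G) U
  have b1 : B ≤ PP V := sup_le h.hy.le (iSup_le fun m => (h.conj m.2).up)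
  have b2 : 𝐍 V ≤ 𝐍 B := le_normalizer_sup le_rfl (le_normalizer_iff_cj.2 fun n hn => by
    rw [cj_iSup]
    exact iSup_le fun m => cj_mul n m U ▸ le_iSup (fun m : 𝐍 V => cj (m : G) U) ⟨n * m, mul_mem hn m.2⟩)
  have e := h.hy.mx (B ⊓ 𝐂 B) (le_inf le_sup_left (le_centralizer_iff.1 (b1.trans PP_c)))
    (inf_le_left.trans (b1.trans PP_le)) (comm_inf_centralizer _) (le_normalizer_inf b2 (le_normalizer_centralizer b2))
  refine h.dis hu (e.le ⟨mem_sup_right (mem_iSup_of_mem 1 (by rwa [OneMemClass.coe_one, cj_one])), ?_⟩)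
  exact zpowers_le.1 (le_centralizer_iff.1 (sup_le (le_centralizer_iff.1 (zpowers_le.2 (h.uc hu)))
    (iSup_le fun m => le_centralizer_iff.1 (zpowers_le.2 (hc m m.2)))))

theorem all_of_not_onto (h : Out V U) (hx : x ∈ PP V) (hv : v ∈ V) (hn : ∀ p ∈ PP V, ⁅p, x⁆ ≠ v) :
    ∀ m ∈ 𝐍 V, x ∈ 𝐂 (cj m U) := fun m hm => by_contra fun c => by
  obtain ⟨u, hu, e⟩ := (h.conj hm).onto hx c hv
  exact hn u ((h.conj hm).up hu) e

theorem onto' (h : Out V U) (hu : u ∈ U) (h1 : u ≠ 1) (hv : v ∈ V) : ∃ p ∈ PP V, ⁅p, u⁆ = v := by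
  by_contra c
  exact h1 (h.one_of_all hu (h.all_of_not_onto (h.up hu) hv fun p hp e => c ⟨p, hp, e⟩))

theorem mem_W (h : Out V U) : w ∈ V ⊔ U ↔ ∃ v ∈ V, ∃ u ∈ U, v * u = w :=
  mem_sup_of_le_normalizer' (h.up.trans PP_le)

theorem wp (h : Out V U) : V ⊔ U ≤ PP V := sup_le h.hy.le h.up

theorem wea (h : Out V U) : IsElementaryAbelian 2 (V ⊔ U) := elemAb_sup h.hy.ea h.hu.ea h.vc

theorem pn (h : Out V U) : PP V ≤ 𝐍 (V ⊔ U) := fun p hp => mem_normalizer_of_conj_mem fun w hw => by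
  have := mul_mem (mem_sup_left (T := U) (h.hy.comm_mem hp (h.wp hw))) hw
  rwa [commutatorElement_def, inv_mul_cancel_right] at this

theorem relIndex (h : Out V U) : (𝐂 U).relIndex (PP V) = Nat.card V := by
  obtain ⟨u, hu, h1⟩ := h.exu
  have e : (h.hy.ad le_rfl (h.up hu)).ker = (𝐂 U).subgroupOf (PP V) := Subgroup.ext fun a =>
    ⟨fun k => h.c_of_c a.2 hu h1 ((h.hy.comm_symm (h.up hu) a.2).trans (congrArg Subtype.val k)), fun k => Subtype.ext (comm_one k hu)⟩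
  rw [Subgroup.relIndex, ← e, index_ker, MonoidHom.range_eq_top.2, card_top]
  intro v
  obtain ⟨p, hp, e⟩ := h.onto' hu h1 v.2
  exact ⟨⟨p, hp⟩, Subtype.ext e⟩

theorem all_of_big (h : Out V U) (hx : x ∈ PP V) (hd : ∀ d ∈ PP V, d ∈ 𝐂 U → ⁅d, x⁆ = 1) (hp : p ∈ PP V) (hn : p ∉ 𝐂 U)
    (hc : ⁅p, x⁆ = 1) : ∀ m ∈ 𝐍 V, x ∈ 𝐂 (cj m U) := by
  by_cases c : Function.Surjective (h.hy.ad le_rfl hx)
  · have l : (𝐂 U).subgroupOf (PP V) ≤ (h.hy.ad le_rfl hx).ker := fun a ha => Subtype.ext (hd a a.2 ha)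
    have e := index_ker (h.hy.ad le_rfl hx)
    rw [MonoidHom.range_eq_top.2 c, card_top, ← h.relIndex, Subgroup.relIndex] at e
    have e2 := relIndex_mul_index l
    rw [e, mul_eq_right₀ FiniteIndex.index_ne_zero, relIndex_eq_one] at e2
    exact absurd (e2 (x := ⟨p, hp⟩) (Subtype.ext hc)) hn
  · simp only [Function.Surjective, not_forall, not_exists] at c
    obtain ⟨v, c⟩ := c
    exact h.all_of_not_onto hx v.2 fun q hq e => c ⟨q, hq⟩ (Subtype.ext e)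

theorem zd (h : Out V U) {z : G} (hz : z ∈ PP V) (hd : ∀ d ∈ PP V, d ∈ 𝐂 U → ⁅d, z⁆ = 1) : z ∈ V ⊔ U := by
  have k : ∀ p ∈ PP V, p ∉ 𝐂 U → ∃ u ∈ U, ⁅z * u, p⁆ = 1 ∧ ∀ m ∈ 𝐍 V, z * u ∈ 𝐂 (cj m U) := fun p hp hn => by
    obtain ⟨u, hu, e⟩ := h.onto hp hn (h.hy.comm_mem hz hp)
    have e1 : ⁅z * u, p⁆ = 1 := by rw [h.hy.comm_mul hz (h.up hu) hp, e, h.hy.sq (h.hy.comm_mem hz hp)]
    have zu := mul_mem hz (h.up hu)
    refine ⟨u, hu, e1, h.all_of_big zu (fun d hd' hc => ?_) hp hn (by rwa [h.hy.comm_symm hp zu])⟩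
    rw [h.hy.comm_symm hd' zu, comm_mul_left_of (by rw [h.hy.comm_symm (h.up hu) hd', comm_one hc hu]),
      h.hy.comm_symm hz hd', hd d hd' hc]
  by_cases c : PP V ≤ 𝐂 U
  · exact mem_sup_left (h.hy.cen hz (mem_c fun p hp => by rw [h.hy.comm_symm hz hp, hd p hp (c hp)]))
  obtain ⟨p, hp, hn⟩ := SetLike.not_le_iff_exists.1 c
  obtain ⟨u, hu, -, e⟩ := k p hp hn
  have zu := mul_mem hz (h.up hu)
  have : z * u ∈ V := h.hy.cen zu (mem_c fun q hq => by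
    by_cases c : q ∈ 𝐂 U
    · rw [comm_mul_left_of (by rw [h.hy.comm_symm (h.up hu) hq, comm_one c hu]), h.hy.comm_symm hz hq, hd q hq c]
    · obtain ⟨u', hu', e1, e2⟩ := k q hq c
      have := h.one_of_all (mul_mem (inv_mem hu) hu') fun m hm => by
        have := mul_mem (inv_mem (e m hm)) (e2 m hm)
        rwa [mul_inv_rev, mul_assoc, inv_mul_cancel_left] at this
      rwa [inv_mul_eq_one.1 this])
  exact h.mem_W.2 ⟨_, this, _, inv_mem hu, mul_inv_cancel_right _ _⟩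

theorem part (h : Out V U) (hw : w ∈ V ⊔ U) (hn : w ∉ V) : ∃ p ∈ PP V, w ∈ cj p U := by
  obtain ⟨v, hv, u, hu, rfl⟩ := h.mem_W.1 hw
  obtain ⟨p, hp, e⟩ := h.onto' hu (fun e => hn (by rwa [e, mul_one])) hv
  exact ⟨p, hp, by rw [← e, commutatorElement_def, inv_mul_cancel_right]; exact conj_mem_cj p hu⟩

theorem cj_le (h : Out V U) (hp : p ∈ PP V) : cj p U ≤ V ⊔ U := cj_le_of_mem_normalizer le_sup_right (h.pn hp)

theorem eq_cj (h : Out V U) (hw : w ∈ V ⊔ U) (hn : w ∉ V) (hx : w ∈ cj x V) : ∃ p ∈ PP V, cj x V = cj p U := by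
  obtain ⟨p, hp, k⟩ := h.part hw hn
  obtain ⟨y, e⟩ := h.ucn x
  exact ⟨p, hp, e ▸ h.hu.eq (e ▸ hx) k fun e => hn (e ▸ one_mem V)⟩

theorem eq_cj' (h : Out V U) (hx : cj x V ≤ V ⊔ U) (hn : x ∉ 𝐍 V) : ∃ p ∈ PP V, cj x V = cj p U := by
  obtain ⟨v, hv, h1⟩ := h.exv
  exact h.eq_cj (hx (conj_mem_cj x hv)) (fun k => hn (h.hy.mem_n hv h1 k)) (conj_mem_cj x hv)

end Out

end H17.TV
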