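import Cfsg.Agent.H17.TV2

/-! `Out V U` is symmetric (`Out.symm`); `N(V)` is transitive on `V^#` and `O₂(N(V))` centralizes `V` (`Out.q_eq`). -/

set_option autoImplicit false

namespace H17.TV

open Subgroup H26 H4 Cfsg
open scoped commutatorElement

variable {G : Type*} [Group G] [Finite G] {V U : Subgroup G} {x y u v p w d f : G}

namespace Out

omit [Finite G] in
theorem cnu (hd : d ∈ 𝐂 U) : d ∈ 𝐍 (PP U) := PP_n (le_normalizer_of_le_centralizer le_rfl hd)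

section
variable (h : Out V U) (hN : 𝐍 (V ⊔ U) ≤ 𝐍 V)
include h hN

theorem s1 (hx : x ∈ PP U) (hv : v ∈ V) (h1 : v ≠ 1) (hc : ⁅x, v⁆ ∈ U) : x ∈ 𝐍 V := by
  by_contra c
  have e : x * v * x⁻¹ ∈ V ⊔ U := by
    have := mul_mem (mem_sup_right (S := V) hc) (mem_sup_left hv)
    rwa [commutatorElement_def, inv_mul_cancel_right] at this
  obtain ⟨p, hp, k⟩ := h.eq_cj e (fun k => c (h.hy.mem_n hv h1 k)) (conj_mem_cj x hv)
  refine c (hN (mem_normalizer_of_cj_le ?_))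
  rw [cj_sup, k, cj_eq_iff.2 (PP_le hx)]
  exact sup_le (h.cj_le hp) le_sup_right

theorem s2 (hv : v ∈ V) (hp : v ∈ PP U) : v = 1 := by
  by_contra c
  refine c (h.dis (h.hu.cen hp (mem_c fun x hx => ?_)) hv)
  have k := h.hu.comm_mem hx hp
  rw [h.hu.comm_symm hp hx, h.dis k (comm_r (h.s1 hN hx hv c k) hv)]

theorem s2' (hx : x ∈ PP U) (hv : v ∈ V) (h1 : v ≠ 1) (hc : ⁅x, v⁆ ∈ U) : x ∈ 𝐂 V :=
  mem_c fun _ hw => h.s2 hN (comm_r (h.s1 hN hx hv h1 hc) hw) (comm_l hx (cnu (h.vc hw)))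

theorem s3 (h1 : y ∈ PP V) (h2 : y ∈ PP U) : y ∈ U := by
  obtain ⟨v, hv, u, hu, rfl⟩ := h.mem_W.1 (h.zd h1 fun d hd hc => h.s2 hN (h.hy.comm_mem hd h1) (comm_r (cnu hc) h2))
  rwa [h.s2 hN hv ((mul_mem_cancel_right (h.hu.le hu)).1 h2), one_mul]

theorem s4 (h1 : f ∈ PP U) (h2 : f ∈ 𝐂 V) (hd : d ∈ PP V) (hc : d ∈ 𝐂 U) : ⁅d, f⁆ ∈ U :=
  h.s3 hN (comm_l hd (cnu h2)) (comm_r (cnu hc) h1)

theorem s5a (hx : x ∈ PP U) (hv : v ∈ V) : ⁅x, v⁆ ∈ 𝐂 V := by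
  by_cases c : v = 1
  · simp [c]
  have k : ⁅x, v⁆ ∈ PP U := comm_l hx (cnu (h.vc hv))
  refine h.s2' hN k hv c ?_
  have e : ⁅⁅x, v⁆, v⁆ = ⁅x, v⁆ * ⁅x, v⁆ := by
    have := h.hy.inv hv
    simp only [commutatorElement_def, mul_inv_rev, inv_inv, this, mul_assoc, h.hy.sq hv, mul_one]
  exact e ▸ h.hu.sq_mem k

theorem s5b (hx : x ∈ PP U) (hd : d ∈ PP V) (hc : d ∈ 𝐂 U) : ⁅x⁻¹, d⁆ ∈ 𝐂 V := by
  obtain ⟨v, hv, h1⟩ := h.exv
  have k : ⁅x, v⁆ ∈ PP U := comm_l hx (cnu (h.vc hv))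
  have k2 := h.s4 hN k (h.s5a hN hx hv) hd hc
  refine h.s2' hN (comm_l (inv_mem hx) (cnu hc)) hv h1 ?_
  have e1 : d⁻¹ * v * d = v := by rw [mul_assoc, mem_centralizer_iff.1 (PP_c hd) v hv, inv_mul_cancel_left]
  have e2 : d * v⁻¹ * d⁻¹ = v⁻¹ := by
    rw [← mem_centralizer_iff.1 (PP_c hd) _ (inv_mem hv), mul_inv_cancel_right]
  have e3 : x⁻¹ * ⁅d, ⁅x, v⁆⁆ * x = ⁅d, ⁅x, v⁆⁆ := by
    rw [mul_assoc, mem_centralizer_iff.1 (PP_c hx) _ k2, inv_mul_cancel_left]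
  have e : ⁅⁅x⁻¹, d⁆, v⁆ = x⁻¹ * ⁅d, ⁅x, v⁆⁆ * x := by
    calc ⁅⁅x⁻¹, d⁆, v⁆ = x⁻¹ * d * x * (d⁻¹ * v * d) * x⁻¹ * d⁻¹ * x * v⁻¹ := by
          simp only [commutatorElement_def]; group
      _ = x⁻¹ * (d * (x * v * x⁻¹) * d⁻¹ * (d * v⁻¹ * d⁻¹)⁻¹⁻¹ * v) * x * v⁻¹ := by rw [e1, e2]; group
      _ = _ := by rw [inv_inv]; simp only [commutatorElement_def]; group
  rwa [e, e3]

theorem s5 (hd : d ∈ PP V) (hc : d ∈ 𝐂 U) : d * d = 1 := by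
  refine h.s2 hN (h.hy.sq_mem hd) (h.hu.mem_of_stab (mul_mem hc hc) fun x hx => ?_)
  have t1 : ⁅x, d⁆ ∈ PP U := comm_l hx (cnu hc)
  have t2 : ⁅x, d⁆ ∈ 𝐂 V := inv_inv x ▸ h.s5b hN (inv_mem hx) hd hc
  have t3 := h.s4 hN t1 t2 hd hc
  have e : ⁅x, d * d⁆ = ⁅x, d⁆ * ⁅d, ⁅x, d⁆⁆ * ⁅x, d⁆ := by simp only [commutatorElement_def]; group
  rw [e, ← mem_centralizer_iff.1 (PP_c t1) _ t3, mul_assoc]
  exact mul_mem t3 (h.hu.sq_mem t1)

theorem s5' (hd : d ∈ PP V) (hc : d ∈ 𝐂 U) : d ∈ V ⊔ U := h.zd hd fun e he hc' => by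
  have := h.s5 hN (mul_mem he hd) (mul_mem hc' hc)
  rwa [commutatorElement_def, inv_eq_of_mul_eq_one_right (h.s5 hN he hc'), inv_eq_of_mul_eq_one_right (h.s5 hN hd hc),
    mul_assoc]

theorem s6 (h1 : f ∈ PP U) (h2 : f ∈ 𝐂 V) : f ∈ U := by
  refine h.s3 hN (h.hy.mem_of_stab h2 fun p hp => ?_) h1
  have fw : f ∈ 𝐂 (V ⊔ U) := zpowers_le.1 (le_centralizer_iff.1 (sup_le (le_centralizer_iff.1 (zpowers_le.2 h2))
    (le_centralizer_iff.1 (zpowers_le.2 (PP_c h1)))))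
  by_cases c : p ∈ 𝐂 U
  · rw [← commutatorElement_inv, comm_one fw (h.s5' hN hp c), inv_one]; exact one_mem V
  have c0 : ⁅p, f⁆ ∈ 𝐂 (V ⊔ U) := comm_r (le_normalizer_centralizer h.pn hp) fw
  have cw : ⁅p, f⁆ ∈ V ⊔ U := h.s5' hN (comm_l hp (cnu h2)) (mem_centralizer_iff.2 fun u hu =>
    mem_centralizer_iff.1 c0 u (mem_sup_right hu))
  have e : p * ⁅p, f⁆ * p⁻¹ * ⁅p, f⁆ = 1 := by
    rw [← commutatorElement_mul_left_eq_conj_mul, ← commutatorElement_inv, comm_one h2 (h.hy.sq_mem hp), inv_one]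
  have e2 : ⁅⁅p, f⁆, p⁆ = 1 := by
    have := h.wea.2 _ cw
    rw [pow_two] at this
    rw [← commutatorElement_inv, commutatorElement_def p ⁅p, f⁆, inv_eq_of_mul_eq_one_right this, e, inv_one]
  obtain ⟨v, hv, u, hu, k⟩ := h.mem_W.1 cw
  by_cases c1 : u = 1
  · rwa [← k, c1, mul_one]
  refine absurd (h.c_of_c hp hu c1 ?_) c
  rwa [← k, mem_centralizer_iff.1 (h.uc hu) v hv, comm_mul_left_of
    (by rw [← commutatorElement_inv, comm_one (PP_c hp) hv, inv_one])] at e2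

theorem s7 : False := by
  have n : ¬ PP U ≤ U := fun c => by
    obtain ⟨g, e⟩ := h.cn
    obtain ⟨u, hu, h1⟩ := h.exu
    rw [e, ← cj_PP, cj_le_cj_iff] at c
    exact h1 (h.dis hu (c (h.up hu)))
  obtain ⟨M, m1, m2, -, m3⟩ := H17.exists_not_le_commutator_le PP_two (elemAb_isPGroup h.hy.ea)
    (fun v hv => cnu (h.vc hv)) n
  obtain ⟨v, hv, h1⟩ := h.exv
  exact m2 fun x hx => h.s6 hN (m1 hx) (h.s2' hN (m1 hx) hv h1 (m3 (commutator_mem_commutator hx hv)))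

end

theorem symm (h : Out V U) : Out U V where
  hy := h.hu
  cn := by simpa only [cj_one] using h.ucn 1
  ne := h.ne.symm
  le := by
    obtain ⟨x, hx, hn⟩ := SetLike.not_le_iff_exists.1 h.s7
    obtain ⟨p, hp, e⟩ := h.eq_cj' (cj_le_of_mem_normalizer le_sup_left hx) hn
    have e2 : cj (p⁻¹ * x) V = U := by rw [cj_mul, e, cj_inv_cj]
    rw [← e2, ← cj_normalizer, ← cj_pCoreOf, le_cj_iff]
    exact (cj_le_of_mem_normalizer le_sup_left (inv_mem (mul_mem (inv_mem (h.pn hp)) hx))).trans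
      (h.wp.trans inf_le_left)

theorem trans (h : Out V U) {a b : G} (ha : a ∈ V) (a1 : a ≠ 1) (hb : b ∈ V) (b1 : b ≠ 1) :
    ∃ n ∈ 𝐍 V, n * a * n⁻¹ = b := by
  obtain ⟨u, hu, h1⟩ := h.exu
  obtain ⟨x, -, e1⟩ := h.symm.onto' ha a1 hu
  obtain ⟨y, -, e2⟩ := h.symm.onto' hb b1 hu
  obtain ⟨p, hp, e3⟩ := h.onto' hu h1 (mul_mem hb (inv_mem ha))
  have e : y⁻¹ * p * x * a * (y⁻¹ * p * x)⁻¹ = b := by
    have k1 := mem_centralizer_iff.1 (PP_c hp) a ha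
    have k2 := mem_centralizer_iff.1 (h.uc hu) a ha
    have k3 := mem_centralizer_iff.1 (h.uc hu) b hb
    calc _ = y⁻¹ * p * ⁅x, a⁆ * (a * p⁻¹) * y := by simp only [commutatorElement_def]; group
      _ = y⁻¹ * (⁅p, u⁆ * u) * a * y := by
          rw [e1, show a * p⁻¹ = p⁻¹ * a by rw [eq_inv_mul_iff_mul_eq, ← mul_assoc, ← k1, mul_inv_cancel_right]]
          simp only [commutatorElement_def]; group
      _ = y⁻¹ * (u * b) * y := by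
          rw [e3, ← k3, mul_assoc y⁻¹, mul_assoc _ u, ← k2]; group
      _ = b := by rw [← e2]; simp only [commutatorElement_def]; group
  exact ⟨_, h.hy.mem_n ha a1 (e ▸ hb), e⟩

theorem q_eq (h : Out V U) : PP V = pCoreOf 2 (𝐍 V) := by
  refine inf_eq_left.2 ?_
  obtain ⟨v, hv, h1⟩ := h.exv
  obtain ⟨M, m1, m2, -, m3⟩ := H17.exists_not_le_commutator_le (C := ⊥) (elemAb_isPGroup h.hy.ea)
    (isPGroup_pCoreOf 2 (𝐍 V)) (pCoreOf_le 2 _) fun k => h1 (k hv)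
  obtain ⟨a, ha, a1⟩ := SetLike.not_le_iff_exists.1 m2
  refine fun q hq => mem_c fun b hb => ?_
  by_cases c : b = 1
  · simp [c]
  obtain ⟨n, hn, rfl⟩ := h.trans (m1 ha) a1 hb c
  have := mem_bot.1 (m3 (commutator_mem_commutator ha (conj_mem_of_mem_normalizer' (le_normalizer_pCoreOf 2 _ hn) hq)))
  rw [← commutatorElement_inv, inv_eq_one]
  calc _ = n * ⁅a, n⁻¹ * q * n⁆ * n⁻¹ := by simp only [commutatorElement_def]; group
    _ = 1 := by rw [this]; group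

end Out

end H17.TV
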