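import Cfsg.Agent.H17.TV3
import Cfsg.Agent.H26.Nat1
import Cfsg.Agent.H4.Quad

/-! `⟨PP V, PP U⟩` induces `SL₂(|V|)` on `V ⊔ U` (`Out.sl2`). -/

set_option autoImplicit false

namespace H17.TV

open Subgroup H26 H4 Cfsg H4.EA
open scoped commutatorElement MatrixGroups

variable {G : Type*} [Group G] {V U W H : Subgroup G}

/-- the part of `W` in `X`, additively -/
def im (hW : IsElementaryAbelian 2 W) (X : Subgroup G) : AddSubgroup (EA hW) where
  carrier := {w | val w ∈ X}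
  zero_mem' := one_mem X
  add_mem' {a b} h k := show val (a + b) ∈ X from val_add a b ▸ mul_mem h k
  neg_mem' {w} h := show val (-w) ∈ X from val_neg w ▸ inv_mem h

theorem c_sup {x : G} (h1 : x ∈ 𝐂 V) (h2 : x ∈ 𝐂 U) : x ∈ 𝐂 (V ⊔ U) :=
  zpowers_le.1 (le_centralizer_iff.1 (sup_le (le_centralizer_iff.1 (zpowers_le.2 h1))
    (le_centralizer_iff.1 (zpowers_le.2 h2))))

variable [Finite G]

theorem Out.shear (h : Out V U) (hW : IsElementaryAbelian 2 W) (e : V ⊔ U = W) {E : Type*} [Group E]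
    [DistribMulAction E (EA hW)] (π : H →* E) (act : ∀ (x : H) (w : EA hW), val (π x • w) = x * val w * (x : G)⁻¹)
    (ker : ∀ x : H, (x : G) ∈ 𝐂 W → π x = 1) (hP : PP V ≤ H) :
    Shear (((PP V).subgroupOf H).map π) (im hW V) (im hW U) where
  mv := by
    rintro _ ⟨x, hx, rfl⟩ w
    show val _ ∈ V
    rw [val_sub, act]
    exact h.hy.comm_mem hx (h.wp (e ▸ val_mem w))
  fix := by
    rintro _ ⟨x, hx, rfl⟩ w hw
    exact val_injective (by rw [act, ← mem_centralizer_iff.1 (show (x : G) ∈ _ from PP_c hx) _ hw, mul_inv_cancel_right])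
  inj := by
    rintro _ ⟨x, hx, rfl⟩ w hw k
    refine or_iff_not_imp_right.2 fun c => ker x (e ▸ c_sup (PP_c hx) (h.c_of_c hx hw (mt val_eq_one.1 c) ?_))
    have := congrArg val k
    rw [act, mul_inv_eq_iff_eq_mul] at this
    exact commutatorElement_eq_one_iff_mul_comm.2 this.symm
  sur y hy c x hx := by
    obtain ⟨p, hp, k⟩ := h.onto' hy (mt val_eq_one.1 c) hx
    exact ⟨π ⟨p, hP hp⟩, ⟨_, hp, rfl⟩, val_injective (by rw [val_sub, act]; exact k)⟩

theorem Out.hn (h : Out V U) : PP V ⊔ PP U ≤ 𝐍 (V ⊔ U) := sup_le h.pn (sup_comm U V ▸ h.symm.pn)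

theorem Out.sl2 (h : Out V U) (hN : ((𝐂 (V ⊔ U)).subgroupOf (PP V ⊔ PP U)).Normal) :
    ∃ (F : Type) (_ : Field F) (_ : Fintype F), Fintype.card F = Nat.card V ∧
      Nonempty (↥(PP V ⊔ PP U) ⧸ (𝐂 (V ⊔ U)).subgroupOf (PP V ⊔ PP U) ≃* SL(2, F)) := by
  have hW := h.wea
  let K := (𝐂 (V ⊔ U)).subgroupOf (PP V ⊔ PP U)
  let ψ : ↥(PP V ⊔ PP U) ⧸ K →* Module.End (ZMod 2) (EA hW) :=
    QuotientGroup.lift K ((rep hW).comp (inclusion h.hn)) fun x hx => rep_eq_one_iff.2 hx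
  let _ : DistribMulAction (↥(PP V ⊔ PP U) ⧸ K) (EA hW) := DistribMulAction.compHom _ ψ
  have act : ∀ (x : ↥(PP V ⊔ PP U)) (w : EA hW), val (QuotientGroup.mk' K x • w) = x * val w * (x : G)⁻¹ :=
    fun x w => val_rep (inclusion h.hn x) w
  have ker : ∀ x : ↥(PP V ⊔ PP U), (x : G) ∈ 𝐂 (V ⊔ U) → QuotientGroup.mk' K x = 1 := fun x hx =>
    (QuotientGroup.eq_one_iff x).2 hx
  have nb : ∀ {X : Subgroup G}, X ≤ V ⊔ U → (∃ x ∈ X, x ≠ 1) → im hW X ≠ ⊥ := fun l ⟨x, hx, k⟩ e =>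
    k (val_eq_one.2 (AddSubgroup.mem_bot.1 (e.le (show EA.mk hW x (l hx) ∈ im hW _ from hx))))
  obtain ⟨F, _, _, c, ρ, j, h1, h2⟩ := sl2_of_shears (h.shear hW rfl _ act ker le_sup_left)
    (h.symm.shear hW (sup_comm _ _) _ act ker le_sup_right)
    (eq_bot_iff.2 fun w hw => val_eq_one.1 (h.dis hw.2 hw.1))
    (eq_top_iff.2 fun w _ => by
      obtain ⟨v, hv, u, hu, e⟩ := h.mem_W.1 (val_mem w)
      rw [show w = EA.mk hW v (mem_sup_left hv) + EA.mk hW u (mem_sup_right hu) from val_injective e.symm]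
      exact AddSubgroup.add_mem_sup hv hu)
    (nb le_sup_left h.exv) (nb le_sup_right h.exu)
    (by rw [← Subgroup.map_sup, ← subgroupOf_sup le_sup_left le_sup_right, subgroupOf_self, ← MonoidHom.range_eq_map,
      QuotientGroup.range_mk'])
    (by
      rintro _ ⟨b, hb, rfl⟩ k
      obtain ⟨p, hp, e⟩ := h.eq_cj' (cj_le_of_mem_normalizer le_sup_left (h.hn b.2)) fun c =>
        k (ker b (c_sup (h.symm.c_of_n hb c) (PP_c hb)))
      refine ⟨_, ⟨⟨p, mem_sup_left hp⟩, hp, rfl⟩, fun x hx => ?_⟩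
      obtain ⟨y, hy, e2⟩ := mem_cj'.1 (e.le (conj_mem_cj (b : G) hx))
      exact ⟨EA.mk hW y (mem_sup_right hy), hy, val_injective (by rw [act, act]; exact e2.symm)⟩)
  refine ⟨F, inferInstance, inferInstance, ?_, ⟨MulEquiv.ofBijective ρ ⟨(injective_iff_map_eq_one ρ).2 fun a e => ?_, h1⟩⟩⟩
  · rw [c, ← relIndex_ker, QuotientGroup.ker_mk', relIndex_subgroupOf le_sup_left, ← h.relIndex, ← inf_relIndex_right,
      ← inf_relIndex_right (𝐂 U)]
    congr 1
    exact le_antisymm (inf_le_inf_right _ fun x hx => mem_centralizer_iff.2 fun u hu =>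
      mem_centralizer_iff.1 hx u (mem_sup_right hu)) fun x hx => ⟨c_sup (PP_c hx.2) hx.1, hx.2⟩
  · obtain ⟨x, rfl⟩ := QuotientGroup.mk'_surjective K a
    refine ker x (mem_centralizer_iff.2 fun w hw => ?_)
    have := congrArg val (h2 (QuotientGroup.mk' K x) (j.symm (EA.mk hW w hw)))
    rw [e, one_smul, j.apply_symm_apply, act, mul_inv_eq_iff_eq_mul] at this
    exact this.symm

end H17.TV
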