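import Mathlib

/-! Eigenspace dimensions for elements normalising an absolutely irreducible group with scalar commutators (`H17.XE.Hy`):
`sum_le`, `le_sum` (dimension counts over eigenspaces), `half_of_inj`, `Hy.main`. -/

set_option autoImplicit false
set_option linter.unusedSectionVars false
open Module Module.End Polynomial

namespace H17.XE

variable {F V : Type*} [Field F] [AddCommGroup V] [Module F V] [FiniteDimensional F V]

theorem sum_le {ι : Type*} (f : End F V) (S : Submodule F V) (s : Finset ι) (μ : ι → F) (hμ : Set.InjOn μ s)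
    (U : ι → Submodule F V) (hU : ∀ i ∈ s, U i ≤ f.eigenspace (μ i) ⊓ S) : ∑ i ∈ s, finrank F (U i) ≤ finrank F S := by
  classical
  have h : iSupIndep fun i : s => U i :=
    (f.eigenspaces_iSupIndep.comp (f := fun i : s => μ i) fun i j h => Subtype.ext (hμ i.2 j.2 h)).mono
      fun i => (hU i i.2).trans inf_le_left
  rw [← Finset.sum_coe_sort s, ← Module.finrank_directSum]
  refine LinearMap.finrank_le_finrank_of_injective (f := LinearMap.codRestrict S
    (DFinsupp.lsum ℕ fun i : s => (U i).subtype) fun x => ?_) fun x y e =>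
      h.dfinsupp_lsum_injective (congrArg Subtype.val e)
  rw [DFinsupp.lsum_apply_apply, DFinsupp.sumAddHom_apply]
  exact S.sum_mem fun i _ => ((hU i i.2) (x i).2).2

theorem le_sum {ι : Type*} (z : End F V) (μ : ι → F) (s : Finset ι) : ∀ W : Submodule F V, (∀ w ∈ W, z w ∈ W) →
    (∀ w ∈ W, aeval z (∏ i ∈ s, (X - C (μ i))) w = 0) →
    finrank F W ≤ ∑ i ∈ s, finrank F (W ⊓ z.eigenspace (μ i) : Submodule F V) := by
  classical
  induction s using Finset.induction_on with
  | empty => intro W _ h; rw [(Submodule.eq_bot_iff W).2 (by simpa using h)]; simp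
  | insert a s ha ih =>
    intro W hW h
    let A : End F V := aeval z (X - C (μ a))
    have hA : ∀ w, A w = z w - μ a • w := fun w => by simp [A]
    have hle : W.map A ≤ W := by rintro _ ⟨w, hw, rfl⟩; exact hA w ▸ W.sub_mem (hW w hw) (W.smul_mem _ hw)
    have h1 := ih (W.map A) (by
      rintro _ ⟨w, hw, rfl⟩; exact ⟨z w, hW w hw, by simp [hA]⟩) (by
      rintro _ ⟨w, hw, rfl⟩
      have := h w hw
      rwa [Finset.prod_insert ha, mul_comm, map_mul] at this)
    have h2 := (A.domRestrict W).finrank_range_add_finrank_ker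
    rw [LinearMap.range_domRestrict, LinearMap.ker_domRestrict, ← Submodule.finrank_map_subtype_eq,
      Submodule.map_comap_subtype] at h2
    have h3 : LinearMap.ker A = z.eigenspace (μ a) := by ext w; simp [hA, sub_eq_zero]
    rw [Finset.sum_insert ha, ← h2, h3, add_comm]
    exact add_le_add le_rfl (h1.trans (Finset.sum_le_sum fun i _ => Submodule.finrank_mono (inf_le_inf_right _ hle)))

theorem half_of_inj (g φ : End F V) (c : F) (h : Function.Injective (g * φ - φ * g)) :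
    2 * finrank F (g.eigenspace c) ≤ finrank F V := by
  let A : End F V := g - c • 1
  have h1 := A.finrank_range_add_finrank_ker
  have h3 : LinearMap.ker A = g.eigenspace c := by ext w; simp [A, sub_eq_zero]
  have h2 : finrank F (g.eigenspace c) ≤ finrank F (LinearMap.range A) := by
    rw [(Submodule.equivMapOfInjective _ h _).finrank_eq]
    refine Submodule.finrank_mono ?_
    rintro _ ⟨w, hw, rfl⟩
    exact ⟨φ w, by simp [A, mem_eigenspace_iff.1 hw]⟩
  rw [h3] at h1; omega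

theorem qpow {a b : End F V} {l : F} (h : a * b = l • (b * a)) (k : ℕ) : a * b ^ k = l ^ k • (b ^ k * a) := by
  induction k with
  | zero => simp
  | succ k ih => rw [pow_succ, ← mul_assoc, ih, smul_mul_assoc, mul_assoc, h, mul_smul_comm, smul_smul, pow_succ, mul_assoc]

theorem mul_pow_eq {a b : End F V} {l : F} (h : a * b = l • (b * a)) (k : ℕ) :
    (b * a) ^ k = l ^ (k.choose 2) • (b ^ k * a ^ k) := by
  induction k with
  | zero => simp
  | succ k ih =>
    rw [pow_succ', ih, mul_smul_comm, mul_assoc, ← mul_assoc a, qpow h, smul_mul_assoc, mul_smul_comm, smul_smul,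
      Nat.choose_succ_succ, Nat.choose_one_right, pow_add, mul_comm (l ^ k), pow_succ', pow_succ', mul_assoc, mul_assoc]

theorem nil_pow {u y : End F V} {l : F} {r : ℕ} (hl : IsPrimitiveRoot l r) (hr : 0 < r) (h : u * y = l • (y * u))
    (hy : y ^ r = 1) : ((l • 1 - y) * u) ^ r = 0 := by
  have key : ∀ k, ((l • 1 - y) * u) ^ k = aeval y (∏ i ∈ Finset.range k, (C l - C l ^ i * X)) * u ^ k := fun k => by
    induction k with
    | zero => simp
    | succ k ih =>
      have : ∀ j, u ^ j * y = l ^ j • (y * u ^ j) := fun j => by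
        induction j with
        | zero => simp
        | succ j ih => rw [pow_succ', mul_assoc, ih, mul_smul_comm, ← mul_assoc, h, smul_mul_assoc, smul_smul,
            mul_assoc, ← pow_succ]
      rw [pow_succ, ih, Finset.prod_range_succ, map_mul, mul_assoc, mul_assoc, ← mul_assoc (u ^ k), mul_sub, this]
      simp [← Algebra.smul_def, ← map_pow, sub_mul, pow_succ, mul_assoc]
  have := congrArg (eval (C l : F[X])) (X_pow_sub_C_eq_prod (hl.map_of_injective (f := (C : F →+* F[X])) C_injective) hr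
    (rfl : (X : F[X]) ^ r = X ^ r))
  simp only [eval_sub, eval_pow, eval_X, eval_C, eval_prod] at this
  rw [key, ← this, ← map_pow, hl.pow_eq_one]; simp [hy]

theorem pow_apply_of_mem_eigenspace {f : End F V} {μ : F} {v : V} (h : v ∈ f.eigenspace μ) (k : ℕ) :
    (f ^ k) v = μ ^ k • v := by
  induction k with
  | zero => simp
  | succ k ih => rw [pow_succ, End.mul_apply, mem_eigenspace_iff.1 h, map_smul, ih, smul_smul, pow_succ']

variable {Γ : Type*} [Group Γ] {ρ : Representation F Γ V} {N : Subgroup Γ} {r : ℕ} {g x : Γ}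

theorem fr_map (u : Γ) (W : Submodule F V) : finrank F (W.map (ρ u)) = finrank F W :=
  (Submodule.equivMapOfInjective _ (ρ.apply_bijective u).1 W).finrank_eq.symm

theorem inj_mul {A : End F V} (u : Γ) (h : ∀ v, A v = 0 → v = 0) : Function.Injective (A * ρ u) :=
  ((injective_iff_map_eq_zero A).2 h).comp (ρ.apply_bijective u).1

theorem eig_zero (u : Γ) : finrank F (eigenspace (ρ u) 0) = 0 := by
  rw [eigenspace_zero, LinearMap.ker_eq_bot.2 (ρ.apply_bijective u).1, finrank_bot]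

theorem eigK {a b : Γ} {l : F} (h : ρ a * ρ b = l • (ρ b * ρ a)) (k : ℕ) (hk : ∀ i < k, ∀ j < k, l ^ i = l ^ j → i = j)
    (μ : F) : k * finrank F (eigenspace (ρ a) μ) ≤ finrank F V := by
  by_cases hμ : μ = 0
  · rw [hμ, eig_zero]; simp
  have := sum_le (ρ a) ⊤ (Finset.range k) (fun i => l ^ i * μ)
    (fun i hi j hj e => hk i (by simpa using hi) j (by simpa using hj) (mul_right_cancel₀ hμ e))
    (fun i => (eigenspace (ρ a) μ).map (ρ (b ^ i))) fun i _ => le_inf (by
      rintro _ ⟨w, hw, rfl⟩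
      rw [mem_eigenspace_iff, map_pow, ← End.mul_apply, qpow h]
      simp [mem_eigenspace_iff.1 hw, smul_smul]) le_top
  simpa [-map_pow, fr_map] using this

theorem half_of_comm {a b : Γ} {l : F} (h : ρ a * ρ b = l • (ρ b * ρ a)) (hl : l ≠ 1) (μ : F) :
    2 * finrank F (eigenspace (ρ a) μ) ≤ finrank F V :=
  eigK h 2 (fun i hi j hj e => by interval_cases i <;> interval_cases j <;> simp_all) μ

theorem prim {l : F} (hr : r.Prime) (h : l ^ r = 1) (h1 : l ≠ 1) : IsPrimitiveRoot l r := by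
  have := Fact.mk hr
  exact orderOf_eq_prime h h1 ▸ IsPrimitiveRoot.orderOf l

/-- scalar -/
def Sc (ρ : Representation F Γ V) (u : Γ) : Prop := ∃ c : F, ρ u = c • 1

/-- hypothesis -/
structure Hy (ρ : Representation F Γ V) (N : Subgroup Γ) (r : ℕ) (g : Γ) : Prop where
  pr : r.Prime
  cm : ∀ u ∈ N, ∀ v ∈ N, ∃ l : F, l ^ r = 1 ∧ ρ u * ρ v = l • (ρ v * ρ u)
  sc : ∀ h, (∀ v ∈ N, ρ h * ρ v = ρ v * ρ h) → Sc ρ h
  nm : ∀ u, u ∈ N ↔ g * u * g⁻¹ ∈ N

theorem Hy.ex (H : Hy ρ N r g) {y : Γ} (hy : y ∈ N) (h : ¬ Sc ρ y) :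
    ∃ v ∈ N, ∃ l : F, IsPrimitiveRoot l r ∧ ρ y * ρ v = l • (ρ v * ρ y) := by
  by_contra hc
  push Not at hc
  refine h (H.sc y fun v hv => ?_)
  obtain ⟨l, h1, h2⟩ := H.cm y hy v hv
  by_cases h3 : l = 1
  · simpa [h3] using h2
  · exact (hc v hv l (prim H.pr h1 h3) h2).elim

theorem Hy.eig_le (H : Hy ρ N r g) {y : Γ} (hy : y ∈ N) (h : ¬ Sc ρ y) (μ : F) :
    r * finrank F (eigenspace (ρ y) μ) ≤ finrank F V := by
  obtain ⟨v, -, l, h1, h2⟩ := H.ex hy h
  exact eigK h2 r (fun i hi j hj e => h1.pow_inj hi hj e) μ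

theorem Hy.pow_conj (H : Hy ρ N r g) (hx : x ∈ N) : ρ (g * x * g⁻¹) ^ r = ρ x ^ r := by
  obtain ⟨c, hc⟩ := H.sc (x ^ r) fun v hv => by
    obtain ⟨l, h1, h2⟩ := H.cm v hv x hx
    rw [map_pow, qpow h2, h1, one_smul]
  rw [← map_pow, conj_pow, map_mul, map_mul, ← map_pow, hc]
  simp [← map_mul]

theorem pow_mul_inv {u v : Γ} {l : F} (h : ρ u⁻¹ * ρ v = l • (ρ v * ρ u⁻¹)) (e : ρ v ^ r = ρ u ^ r) :
    ρ (v * u⁻¹) ^ r = l ^ r.choose 2 • 1 := by
  rw [map_mul, mul_pow_eq h, e, ← map_pow, ← map_pow, ← map_mul]; simp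

theorem Hy.pw_one (H : Hy ρ N r g) (hr : 2 < r) {u v : Γ} (hu : u ∈ N) (hv : v ∈ N) (e : ρ v ^ r = ρ u ^ r) :
    ρ (v * u⁻¹) ^ r = 1 := by
  obtain ⟨l, h1, h2⟩ := H.cm _ (N.inv_mem hu) v hv
  obtain ⟨k, hk⟩ := H.pr.dvd_choose_self two_ne_zero hr
  rw [pow_mul_inv h2 e, hk, pow_mul, h1, one_pow, one_smul]

theorem Hy.triv (H : Hy ρ N r g) (hg : ¬ Sc ρ g) (h : ∀ x ∈ N, Sc ρ (g * x * g⁻¹ * x⁻¹)) (c : F) :
    2 * finrank F (eigenspace (ρ g) c) ≤ finrank F V := by
  obtain ⟨x, hx, h1⟩ : ∃ x ∈ N, ρ g * ρ x ≠ ρ x * ρ g := by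
    by_contra hc; push Not at hc; exact hg (H.sc g hc)
  obtain ⟨l, hl⟩ := h x hx
  have : ρ g * ρ x = l • (ρ x * ρ g) := by
    rw [← map_mul, ← map_mul, show g * x = g * x * g⁻¹ * x⁻¹ * (x * g) by group, map_mul, hl]; simp
  exact half_of_comm this (fun h => h1 (by simpa [h] using this)) c

theorem Hy.simple (H : Hy ρ N r g) (hx : x ∈ N) (h : ¬ Sc ρ (g * x * g⁻¹ * x⁻¹)) (c : F) :
    r * (2 * finrank F (eigenspace (ρ g) c)) ≤ r * finrank F V + finrank F V := by
  have h1 := H.eig_le (N.mul_mem ((H.nm x).1 hx) (N.inv_mem hx)) h 1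
  have h2 := Submodule.finrank_sup_add_finrank_inf_eq (eigenspace (ρ g) c) ((eigenspace (ρ g) c).map (ρ x))
  have h3 : finrank F (eigenspace (ρ g) c ⊓ (eigenspace (ρ g) c).map (ρ x) : Submodule F V) ≤
      finrank F (eigenspace (ρ (g * x * g⁻¹ * x⁻¹)) 1) := Submodule.finrank_mono (by
    rintro _ ⟨h4, w, hw, rfl⟩
    have h5 : ρ g (ρ x (ρ g⁻¹ w)) = ρ x w := by
      have h6 : ρ g⁻¹ (ρ g w) = w := by simp
      have h7 := mem_eigenspace_iff.1 h4
      rw [mem_eigenspace_iff.1 hw, map_smul] at h6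
      by_cases hc : c = 0
      · have : w = 0 := by simpa [hc] using h6.symm
        simp [this]
      · refine smul_right_injective V hc ?_
        simp only []
        rw [← map_smul, ← map_smul, h6, h7]
    simpa [mem_eigenspace_iff] using h5)
  have h4 := Submodule.finrank_le (eigenspace (ρ g) c ⊔ (eigenspace (ρ g) c).map (ρ x))
  rw [fr_map] at h2
  nlinarith

theorem Hy.two (H : Hy ρ N 2 g) (hx : x ∈ N) (h : ρ x⁻¹ * ρ (g * x * g⁻¹) ≠ ρ (g * x * g⁻¹) * ρ x⁻¹) (c : F) :
    2 * finrank F (eigenspace (ρ g) c) ≤ finrank F V := by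
  obtain ⟨l, -, h2⟩ := H.cm _ (N.inv_mem hx) _ ((H.nm x).1 hx)
  have h3 := pow_mul_inv h2 (H.pow_conj hx)
  refine half_of_inj _ (ρ x) c ?_
  rw [show ρ g * ρ x - ρ x * ρ g = (ρ (g * x * g⁻¹ * x⁻¹) - 1) * ρ (x * g) by
    rw [sub_mul, ← map_mul, ← map_mul, ← map_mul, one_mul]; congr 2; group]
  refine inj_mul _ fun v hv => ?_
  rw [LinearMap.sub_apply, sub_eq_zero, End.one_apply] at hv
  have := LinearMap.congr_fun h3 v
  rw [pow_two, End.mul_apply, hv, hv] at this
  by_contra h0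
  refine h ?_
  have : l = 1 := smul_left_injective F h0 (by simpa using this.symm)
  simpa [this] using h2

theorem Hy.three (H : Hy ρ N r g) (hr : 2 < r) (hx : x ∈ N) {u y : Γ} (hu : u = x * (g * (g * x * g⁻¹) * g⁻¹)⁻¹)
    (hy : y = g * x * g⁻¹ * x⁻¹) (h : ρ u * ρ y ≠ ρ y * ρ u) (c : F) :
    2 * finrank F (eigenspace (ρ g) c) ≤ finrank F V := by
  have h1 := (H.nm x).1 hx
  have h2 := (H.nm _).1 h1
  obtain ⟨l, h3, h4⟩ := H.cm u (hu ▸ N.mul_mem hx (N.inv_mem h2)) y (hy ▸ N.mul_mem h1 (N.inv_mem hx))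
  have hl : l ≠ 1 := fun e => h (by simpa [e] using h4)
  have h5 := nil_pow (prim H.pr h3 hl) H.pr.pos h4 (hy ▸ H.pw_one hr hx h1 (H.pow_conj hx))
  refine half_of_inj _ ((1 - l) • ρ (g * x * g⁻¹) - l • ρ x) c ?_
  rw [show ρ g * ((1 - l) • ρ (g * x * g⁻¹) - l • ρ x) - ((1 - l) • ρ (g * x * g⁻¹) - l • ρ x) * ρ g =
      ((l • 1 - ρ y) * ρ u - (l - 1) • 1) * ρ (g * (g * x * g⁻¹)) by
    simp only [sub_mul, mul_sub, smul_mul_assoc, mul_smul_comm, one_mul, ← map_mul, hu, hy]
    rw [show x * (g * (g * x * g⁻¹) * g⁻¹)⁻¹ * (g * (g * x * g⁻¹)) = x * g by group,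
      show g * x * g⁻¹ * x⁻¹ * (x * (g * (g * x * g⁻¹) * g⁻¹)⁻¹) * (g * (g * x * g⁻¹)) = g * x by group,
      show g * x * g⁻¹ * g = g * x by group]
    module]
  refine inj_mul _ fun v hv => ?_
  rw [LinearMap.sub_apply, sub_eq_zero, LinearMap.smul_apply, End.one_apply] at hv
  have : ∀ k, (((l • 1 - ρ y) * ρ u) ^ k) v = (l - 1) ^ k • v := fun k => by
    induction k with
    | zero => simp
    | succ k ih => rw [pow_succ, End.mul_apply, hv, map_smul, ih, smul_smul, pow_succ']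
  have := this r
  rw [h5, LinearMap.zero_apply, eq_comm, smul_eq_zero] at this
  exact this.resolve_left (pow_ne_zero _ (sub_ne_zero.2 hl))

theorem Hy.unip (H : Hy ρ N r g) (hr : 4 ≤ r) (hx : x ∈ N) {z : Γ} (hz : z = g * x * g⁻¹ * x⁻¹) (h : ¬ Sc ρ z)
    (hg : ρ g * ρ z = ρ z * ρ g) (c : F) : 2 * finrank F (eigenspace (ρ g) c) ≤ finrank F V := by
  by_cases hc : c = 0
  · rw [hc, eig_zero]; simp
  have hzN : z ∈ N := hz ▸ N.mul_mem ((H.nm x).1 hx) (N.inv_mem hx)
  have hzr : ρ z ^ r = 1 := hz ▸ H.pw_one (by omega) hx ((H.nm x).1 hx) (H.pow_conj hx)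
  obtain ⟨l, h1, h2⟩ := H.cm z hzN x hx
  have gx : ∀ j, ρ g * ρ x ^ j = l ^ (j + 1).choose 2 • (ρ x ^ j * ρ z ^ j * ρ g) := fun j => by
    induction j with
    | zero => simp
    | succ j ih =>
      have : ρ g * ρ x = ρ z * ρ x * ρ g := by rw [← map_mul, ← map_mul, ← map_mul, hz]; congr 1; group
      rw [pow_succ, ← mul_assoc, ih, smul_mul_assoc, mul_assoc, this, ← mul_assoc, ← mul_assoc, mul_assoc (ρ x ^ j),
        ← pow_succ, mul_assoc (ρ x ^ j), Nat.choose_succ_succ' (j + 1), Nat.choose_one_right, pow_add l, mul_comm (l ^ (j + 1))]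
      have : ∀ k, ρ z ^ k * ρ x = l ^ k • (ρ x * ρ z ^ k) := fun k => by
        induction k with
        | zero => simp
        | succ k ih => rw [pow_succ', mul_assoc, ih, mul_smul_comm, ← mul_assoc, h2, smul_mul_assoc, smul_smul,
            mul_assoc, ← pow_succ]
      rw [this]; simp [smul_smul, mul_assoc]
  set W := eigenspace (ρ g) c
  have hd : ∀ ζ : F, IsPrimitiveRoot ζ r →
      finrank F W ≤ ∑ j ∈ Finset.range r, finrank F (W ⊓ eigenspace (ρ z) (ζ ^ j) : Submodule F V) := fun ζ hζ =>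
    le_sum (ρ z) (fun j => ζ ^ j) _ W (fun w hw => mem_eigenspace_iff.2 (by
      rw [← End.mul_apply, hg, End.mul_apply, mem_eigenspace_iff.1 hw, map_smul])) fun w _ => by
      have := X_pow_sub_C_eq_prod hζ H.pr.pos (one_pow r)
      simp only [mul_one] at this
      rw [← this]; simp [hzr]
  have he := H.eig_le hzN h
  obtain ⟨k, hk⟩ : ∃ k, r = 2 * k + 1 := H.pr.odd_of_ne_two (by omega)
  by_cases hl : l = 1
  · obtain ⟨-, -, ζ, hζ, -⟩ := H.ex hzN h
    have h3 : ∀ j ∈ Finset.range (2 * k), r * (3 * finrank F (W ⊓ eigenspace (ρ z) (ζ ^ (j + 1)) : Submodule F V)) ≤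
        finrank F V := fun j hj => by
      have hj : j + 1 < r := by simp at hj; omega
      have hp := hζ.pow_of_coprime (j + 1) (Nat.coprime_of_lt_prime (by omega) hj H.pr).symm
      have := sum_le (ρ g) (eigenspace (ρ z) (ζ ^ (j + 1))) (Finset.range 3) (fun i => (ζ ^ (j + 1)) ^ i * c)
        (fun a ha b hb e => hp.pow_inj (by simp at ha; omega) (by simp at hb; omega) (mul_right_cancel₀ hc e))
        (fun i => (W ⊓ eigenspace (ρ z) (ζ ^ (j + 1))).map (ρ (x ^ i))) fun i _ => by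
          rintro _ ⟨w, ⟨hw, hw'⟩, rfl⟩
          have h4 : (ρ z ^ i) w = (ζ ^ (j + 1)) ^ i • w := pow_apply_of_mem_eigenspace hw' i
          refine ⟨mem_eigenspace_iff.2 ?_, mem_eigenspace_iff.2 ?_⟩
          · rw [map_pow, ← End.mul_apply, gx]
            simp [hl, mem_eigenspace_iff.1 hw, h4, smul_smul, mul_comm]
          · rw [map_pow, ← End.mul_apply, qpow h2]
            simp [hl, mem_eigenspace_iff.1 hw']
      simp only [fr_map, Finset.sum_const, Finset.card_range, smul_eq_mul] at this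
      exact (Nat.mul_le_mul_left _ this).trans (he _)
    have h4 := Finset.sum_le_sum h3
    have h5 := hd ζ hζ
    have h6 := (Nat.mul_le_mul_left r (Submodule.finrank_mono (inf_le_right (a := W)))).trans (he (ζ ^ 0))
    rw [hk, Finset.sum_range_succ'] at h5
    simp only [← Finset.mul_sum, Finset.sum_const, Finset.card_range, smul_eq_mul] at h4
    have h7 := Nat.mul_le_mul_left (6 * r) h5
    refine Nat.le_of_mul_le_mul_left (c := 3 * r) ?_ (by omega)
    have : (4 * k + 6) * finrank F V ≤ 3 * r * finrank F V := Nat.mul_le_mul_right _ (by omega)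
    nlinarith
  have hp := prim H.pr h1 hl
  have l0 := hp.ne_zero H.pr.ne_zero
  have key : ∀ s : Finset ℕ, (∀ i ∈ s, ∀ j ∈ s, i < r ∧ (i + j + 1 = r → i = j)) →
      r * ∑ j ∈ s, finrank F (W ⊓ eigenspace (ρ z) (l ^ j) : Submodule F V) ≤ finrank F V := fun s hs => by
    have := sum_le (ρ g) (eigenspace (ρ z) 1) s (fun j => c / l ^ (j + 1).choose 2) (fun i hi j hj e => by
        have e' : l ^ (i + 1).choose 2 = l ^ (j + 1).choose 2 := by
          simpa [div_eq_mul_inv, hc] using e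
        have h4 : l ^ ((i + 1) * i) = l ^ ((j + 1) * j) := by
          have : ∀ a : ℕ, (a + 1) * a = (a + 1).choose 2 * 2 := fun a => by
            rw [Nat.choose_two_right, Nat.div_mul_cancel (Nat.even_mul_pred_self (a + 1)).two_dvd, Nat.add_sub_cancel]
          rw [this, this, pow_mul, pow_mul, e']
        have h5 : ((r : ℤ)) ∣ ((i : ℤ) - j) * (i + j + 1) := by
          rw [← hp.zpow_eq_one_iff_dvd, show ((i : ℤ) - j) * (i + j + 1) = ((i + 1) * i : ℕ) - ((j + 1) * j : ℕ) by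
            push_cast; ring, zpow_sub₀ l0, zpow_natCast, zpow_natCast, h4, div_self (pow_ne_zero _ l0)]
        have hi' := (hs i hi j hj).1
        have hj' := (hs j hj i hi).1
        rcases (Nat.prime_iff_prime_int.1 H.pr).dvd_or_dvd h5 with h6 | h6
        · have := Int.eq_zero_of_abs_lt_dvd h6 (by rw [abs_lt]; omega); omega
        · obtain ⟨t, ht⟩ := h6
          have : t = 1 := by
            have : 0 < t := by nlinarith
            have : t < 2 := by nlinarith
            omega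
          exact (hs i hi j hj).2 (by subst this; omega))
      (fun j => (W ⊓ eigenspace (ρ z) (l ^ j)).map (ρ (x ^ j)⁻¹)) fun j _ => by
        rintro _ ⟨w, ⟨hw, hw'⟩, rfl⟩
        obtain ⟨v, rfl⟩ := (ρ.apply_bijective (x ^ j)).2 w
        have h4 : ρ z v = v := (ρ.apply_bijective (x ^ j)).1 (smul_right_injective V (pow_ne_zero j l0) (by
          have := mem_eigenspace_iff.1 hw'
          rw [map_pow, ← End.mul_apply, qpow h2] at this
          simpa using this))
        have h5 : (ρ z ^ j) (ρ g v) = ρ g v := by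
          have := pow_apply_of_mem_eigenspace (f := ρ z) (μ := 1) (v := ρ g v) (mem_eigenspace_iff.2 (by
            rw [← End.mul_apply, ← hg, End.mul_apply, h4, one_smul])) j
          simpa using this
        rw [Representation.inv_self_apply]
        refine ⟨mem_eigenspace_iff.2 ((ρ.apply_bijective (x ^ j)).1 ?_), mem_eigenspace_iff.2 (by rw [h4, one_smul])⟩
        have := mem_eigenspace_iff.1 hw
        rw [map_pow, ← End.mul_apply, gx] at this
        simp only [LinearMap.smul_apply, End.mul_apply, h5] at this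
        rw [map_smul, map_pow, div_eq_inv_mul, mul_smul, ← this, inv_smul_smul₀ (pow_ne_zero _ l0)]
    simp only [fr_map] at this
    exact (Nat.mul_le_mul_left _ this).trans (he _)
  have h3 := key (Finset.Ico 0 (k + 1)) fun i hi j hj => by simp at hi hj; omega
  have h4 := key (Finset.Ico (k + 1) r) fun i hi j hj => by simp at hi hj; omega
  have h5 := Nat.mul_le_mul_left r (hd l hp)
  rw [Finset.range_eq_Ico, ← Finset.sum_Ico_consecutive _ (Nat.zero_le (k + 1)) (by omega), mul_add] at h5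
  refine Nat.le_of_mul_le_mul_left (c := r) ?_ (by omega)
  have : 4 * finrank F V ≤ r * finrank F V := Nat.mul_le_mul_right _ hr
  nlinarith

theorem frob {D : Type*} [AddCommGroup D] (hr : r.Prime) (A : End ℤ D) {d : D} (hd : r • d = 0) (m : ℕ) :
    ((A + 1) ^ r ^ m) d = (A ^ r ^ m) d + d := by
  obtain ⟨t, ht⟩ := (Commute.one_right A).exists_add_pow_prime_pow_eq hr m
  rw [ht, mul_assoc, mul_assoc, LinearMap.add_apply, LinearMap.add_apply, ← nsmul_eq_mul, LinearMap.smul_apply,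
    ← map_nsmul, hd]
  simp

theorem comm_of_sc {a b : Γ} (h : Sc ρ (a * b * a⁻¹ * b⁻¹)) : ∃ l : F, ρ a * ρ b = l • (ρ b * ρ a) := by
  obtain ⟨l, hl⟩ := h
  exact ⟨l, by rw [← map_mul, ← map_mul, show a * b = a * b * a⁻¹ * b⁻¹ * (b * a) by group, map_mul, hl]; simp⟩

theorem Hy.half (H : Hy ρ N r g) {ϖ : ℕ} (hϖ : ϖ.Prime) (h2 : ϖ ≠ 2) (h4 : r = ϖ → 4 ≤ r) (hgϖ : g ^ ϖ = 1) (hg : ¬ Sc ρ g)
    (c : F) : 2 * finrank F (eigenspace (ρ g) c) ≤ finrank F V := by
  by_cases h0 : ∀ x ∈ N, Sc ρ (g * x * g⁻¹ * x⁻¹)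
  · exact H.triv hg h0 c
  push Not at h0
  obtain ⟨x₀, hx₀, h0⟩ := h0
  have : Nontrivial V := by
    by_contra h
    have := not_nontrivial_iff_subsingleton.1 h
    exact hg ⟨0, Subsingleton.elim _ _⟩
  have uq : ∀ (u v : Γ) (l l' : F), l • (ρ u * ρ v) = l' • (ρ u * ρ v) → l = l' := fun u v l l' h =>
    smul_left_injective F (((Group.isUnit (u * v)).map ρ).ne_zero) (by simpa using h)
  choose B hB1 hB2 using fun u v : N => H.cm u u.2 v v.2
  have B0 : ∀ u v, B u v ≠ 0 := fun u v h => by simpa [h, H.pr.ne_zero] using hB1 u v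
  let b : N → N → Additive Fˣ := fun u v => Additive.ofMul (Units.mk0 _ (B0 u v))
  have b0 : ∀ u v : N, b u v = 0 ↔ ρ u * ρ v = ρ v * ρ u := fun u v => by
    rw [hB2, ofMul_eq_zero, Units.ext_iff]
    exact ⟨fun h => by rw [show B u v = 1 from h, one_smul], fun h => uq v u _ _ (h.trans (one_smul _ _).symm)⟩
  have bmul : ∀ u v, b (u * v) = b u + b v := fun u v => funext fun w => Additive.toMul.injective (Units.ext
    (uq w (u * v : N) (B (u * v) w) (B u w * B v w) (by
      rw [← hB2, Subgroup.coe_mul, map_mul, mul_assoc, hB2 v, mul_smul_comm, ← mul_assoc, hB2 u, smul_mul_assoc, smul_smul,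
        mul_comm (B v w), mul_assoc])))
  have binv : ∀ u, b u⁻¹ = - b u := fun u => by
    rw [eq_neg_iff_add_eq_zero, ← bmul]
    exact funext fun w => (b0 _ _).2 (by simp)
  have anti : ∀ u v, b u v = - b v u := fun u v => by
    rw [eq_neg_iff_add_eq_zero]
    exact Additive.toMul.injective (Units.ext (uq v u (B u v * B v u) 1 (by
      rw [mul_comm, ← smul_smul, ← hB2, ← hB2, one_smul])))
  have alt : ∀ u, b u u = 0 := fun u => (b0 u u).2 rfl
  have bsc : ∀ u : N, b u = 0 ↔ Sc ρ u := fun u =>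
    ⟨fun h => H.sc u fun v hv => (b0 u ⟨v, hv⟩).1 (congrFun h _), fun ⟨c, hc⟩ => funext fun v => (b0 u v).2 (by simp [hc])⟩
  have br : ∀ u, r • b u = 0 := fun u => funext fun v => Additive.toMul.injective (Units.ext (hB1 u v))
  let g' : Subgroup.normalizer (N : Set Γ) := ⟨g, Subgroup.mem_normalizer_iff.2 H.nm⟩
  let s : MulAut N := N.normalizerMonoidHom g'
  have hs : ∀ u, (s u : Γ) = g * u * g⁻¹ := fun u => rfl
  have bs : ∀ u v, b (s u) (s v) = b u v := fun u v => congrArg Additive.ofMul (Units.ext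
    (uq (s v) (s u) (B _ _) (B u v) (by
      rw [← hB2, hs, hs, ← map_mul, ← map_mul, conj_mul, conj_mul, map_mul, map_mul, map_mul, map_mul, map_mul, map_mul,
        hB2, mul_smul_comm, smul_mul_assoc])))
  let σ : End ℤ (N → Additive Fˣ) := LinearMap.funLeft ℤ (Additive Fˣ) s.symm
  have hσ : ∀ u, σ (b u) = b (s u) := fun u => funext fun v => by
    rw [← s.apply_symm_apply v, bs]; simp [σ]
  have hσk : ∀ k u, (σ ^ k) (b u) = b ((s ^ k) u) := fun k u => by
    induction k with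
    | zero => simp
    | succ k ih => rw [pow_succ', End.mul_apply, ih, hσ, pow_succ', MulAut.mul_apply]
  have hσϖ : ∀ u k, (σ ^ (ϖ * k)) (b u) = b u := fun u k => by
    rw [hσk, pow_mul, ← map_pow, show g' ^ ϖ = 1 from Subtype.ext hgϖ]; simp
  let δ : N → N := fun u => s u * u⁻¹
  have hδ : ∀ u, b (δ u) = (σ - 1) (b u) := fun u => by rw [bmul, binv, ← hσ]; simp [sub_eq_add_neg]
  have h1 : (σ - 1) (b ⟨x₀, hx₀⟩) ≠ 0 := fun h => h0 ((bsc _).1 ((hδ _).trans h))
  by_cases hr : r = ϖ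
  · obtain ⟨x, hx1, hx2⟩ : ∃ x, b (δ (δ x)) = 0 ∧ b (δ x) ≠ 0 := by
      by_contra hc
      push Not at hc
      have : ∀ (k : ℕ) x, ((σ - 1) ^ (k + 1) : End ℤ (N → Additive Fˣ)) (b x) = 0 → b (δ x) = 0 := fun k => by
        induction k with
        | zero => intro x hx; simpa [hδ] using hx
        | succ k ih => intro x hx; exact hc x (ih _ (by rwa [pow_succ, End.mul_apply, ← hδ] at hx))
      have h3 := frob H.pr (σ - 1) (br ⟨x₀, hx₀⟩) 1
      rw [sub_add_cancel, pow_one, hr, ← mul_one ϖ, hσϖ, mul_one, right_eq_add, ← Nat.sub_add_cancel hϖ.pos] at h3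
      exact h1 (hδ _ ▸ this _ _ h3)
    obtain ⟨l, hl⟩ := comm_of_sc (a := g) (b := δ x) ((bsc _).1 hx1)
    by_cases e : l = 1
    · exact H.unip (h4 hr) x.2 (z := δ x) rfl (mt (bsc _).2 hx2) (by simpa [e] using hl) c
    · exact half_of_comm hl e c
  obtain ⟨x, hx⟩ : ∃ x, b (δ x) (s (δ x)) ≠ 0 := by
    by_contra hc
    push Not at hc
    have bδ : ∀ x t, b (δ x) t = b (s x) t - b x t := fun x t => by rw [bmul, binv]; simp [sub_eq_add_neg]
    have pol : ∀ x w, b (δ x) (s (δ w)) = b (s (δ x)) (δ w) := fun x w => by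
      have e1 : ∀ t, b (δ (x * w)) t = b (δ x) t + b (δ w) t := fun t => by
        simp only [bδ, map_mul, bmul, Pi.add_apply]; abel
      have e2 : ∀ t, b t (s (δ (x * w))) = b t (s (δ x)) + b t (s (δ w)) := fun t => by
        rw [← s.apply_symm_apply t, bs, bs, bs, anti, e1, anti (δ x), anti (δ w)]; abel
      have := hc (x * w)
      rw [e1, e2, e2, hc, hc, anti (δ w)] at this
      simpa [add_neg_eq_zero] using this
    have h3 : ∀ w, (σ ^ 3 - σ ^ 2 - σ + 1 : End ℤ (N → Additive Fˣ)) (b (δ w)) = 0 := fun w => funext fun x => by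
      have e := pol x (s (s w))
      have e1 : δ (s (s w)) = s (s (δ w)) := by simp [δ]
      rw [e1, bs, bδ, bδ, bs, bs] at e
      simp only [pow_succ, pow_zero, one_mul, LinearMap.add_apply, LinearMap.sub_apply, End.mul_apply, End.one_apply, hσ,
        Pi.add_apply, Pi.sub_apply, Pi.zero_apply]
      rw [anti _ x, anti _ x, anti _ x, anti _ x]
      linear_combination (norm := abel1) e
    have h5 := frob H.pr (σ ^ 2 - 1) (br ⟨x₀, hx₀⟩) 2
    have h6 : 3 ≤ r ^ 2 := by nlinarith [H.pr.two_le]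
    rw [sub_add_cancel, ← Nat.sub_add_cancel h6, pow_add (σ ^ 2 - 1), show (σ ^ 2 - 1) ^ 3 =
      (σ + 1) ^ 2 * (σ ^ 3 - σ ^ 2 - σ + 1) * (σ - 1) by noncomm_ring, End.mul_apply, End.mul_apply, End.mul_apply, ← hδ, h3,
      map_zero, map_zero, zero_add, Nat.sub_add_cancel h6, ← pow_mul] at h5
    have hco : (2 * r ^ 2).Coprime ϖ := Nat.Coprime.mul_left ((Nat.coprime_primes Nat.prime_two hϖ).2 h2.symm)
      (((Nat.coprime_primes H.pr hϖ).2 hr).pow_left 2)
    obtain ⟨m, -, hm⟩ := Nat.exists_mul_mod_eq_one_of_coprime hco hϖ.one_lt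
    have h7 : ∀ k, (σ ^ (2 * r ^ 2 * k)) (b ⟨x₀, hx₀⟩) = b ⟨x₀, hx₀⟩ := fun k => by
      induction k with
      | zero => simp
      | succ k ih => rw [mul_add, mul_one, pow_add, End.mul_apply, h5, ih]
    have := h7 m
    rw [← Nat.mod_add_div (2 * r ^ 2 * m) ϖ, hm, pow_add, End.mul_apply, hσϖ, pow_one] at this
    exact h1 (by simp [this])
  rcases H.pr.two_le.eq_or_lt with rfl | hr2
  · exact H.two (δ x).2 (fun h => hx (by simpa [binv] using (b0 (δ x)⁻¹ (s (δ x))).2 h)) c
  · refine H.three hr2 x.2 (u := (x * (s (s x))⁻¹ : N)) (y := δ x) rfl rfl (fun h => hx ?_) c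
    have := (b0 _ _).2 h
    have e : b (x * (s (s x))⁻¹) = - (b (s (δ x)) + b (δ x)) := by simp only [δ, map_mul, map_inv, bmul, binv]; abel
    rw [e, Pi.neg_apply, Pi.add_apply, alt, add_zero, ← anti] at this
    exact this

end H17.XE
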