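import Cfsg.Agent.S4422

/-! Large primitive parts of `a ^ n - 1`: `H17.Zs.cyc_ge` (`x ^ φ n / 4 ≤ Φ_n(x)`), `H17.Zs.exists_prim`
(a primitive divisor `m` with `Φ_n(a) ≤ m * n`), `H17.Zs.prim` (`3 n + 1 ≤ m` outside 13 pairs). -/

namespace H17.Zs

open Polynomial Finset

theorem prod_ge (n : ℕ) : Real.log (1 / 4 + 1 / 2 ^ (n + 2)) ≤ ∑ d ∈ range (n + 1), Real.log (1 - 1 / 2 ^ (d + 1)) := by
  induction n with
  | zero => simp; norm_num
  | succ n ih =>
    have h1 : (0 : ℝ) < 1 / 2 ^ (n + 2) := by positivity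
    have h2 : (1 : ℝ) / 2 ^ (n + 2) ≤ 1 / 4 :=
      one_div_le_one_div_of_le (by norm_num) (by rw [pow_add]; nlinarith [one_le_pow₀ (M₀ := ℝ) (n := n) one_le_two])
    rw [sum_range_succ]
    refine le_trans ?_ (add_le_add ih le_rfl)
    rw [← Real.log_mul (by positivity) (by linarith), show (1 : ℝ) / 2 ^ (n + 1 + 2) = 1 / 2 ^ (n + 2) / 2 by ring]
    refine Real.log_le_log (by positivity) ?_
    generalize (1 : ℝ) / 2 ^ (n + 2) = t at *
    nlinarith

theorem cyc_ge {x : ℝ} (hx : 2 ≤ x) {n : ℕ} (hn : 0 < n) : x ^ n.totient / 4 ≤ (cyclotomic n ℝ).eval x := by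
  have x0 : 0 < x := by linarith
  have pos : ∀ d, 0 < (cyclotomic d ℝ).eval x := fun d => cyclotomic_pos' d (by linarith)
  have lt : ∀ d > 0, (1 : ℝ) / x ^ d < 1 := fun d hd => by
    rw [div_lt_one (by positivity)]; exact one_lt_pow₀ (by linarith) hd.ne'
  have h := (ArithmeticFunction.sum_eq_iff_sum_smul_moebius_eq
    (f := fun d => Real.log ((cyclotomic d ℝ).eval x) - d.totient * Real.log x)
    (g := fun d => Real.log (1 - 1 / x ^ d))).1 (fun d hd => by
      rw [sum_sub_distrib, ← sum_mul, ← Nat.cast_sum, Nat.sum_totient, ← Real.log_prod fun i _ => (pos i).ne',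
        ← eval_prod, prod_cyclotomic_eq_X_pow_sub_one hd, ← Real.log_pow, ← Real.log_div
          (by simpa using (sub_pos.2 (one_lt_pow₀ (by linarith) hd.ne')).ne') (by positivity)]
      congr 1
      simp only [eval_sub, eval_pow, eval_X, eval_one]
      field_simp) n hn
  have h2 : ∑ d ∈ n.divisors, Real.log (1 - 1 / x ^ d) ≤ Real.log ((cyclotomic n ℝ).eval x) - n.totient * Real.log x := by
    rw [← h, ← Nat.sum_divisorsAntidiagonal' fun _ d => Real.log (1 - 1 / x ^ d)]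
    refine sum_le_sum fun p hp => ?_
    have := Real.log_nonpos (sub_pos.2 (lt p.2 (Nat.pos_of_mem_divisors (Nat.snd_mem_divisors_of_mem_antidiagonal hp)))).le
      (sub_le_self 1 (by positivity))
    rcases ArithmeticFunction.moebius_eq_or p.1 with e | e | e <;> rw [e] <;> simp only [zero_smul, one_smul, neg_smul] <;>
      linarith
  have h3 : ∑ d ∈ range n, Real.log (1 - 1 / 2 ^ (d + 1)) ≤ ∑ d ∈ n.divisors, Real.log (1 - 1 / x ^ d) := by
    have k : ∀ d, 0 < d → (1 : ℝ) / 2 ^ d < 1 := fun d hd => by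
      rw [div_lt_one (by positivity)]; exact one_lt_pow₀ one_lt_two hd.ne'
    calc _ = ∑ d ∈ Ico 1 (n + 1), Real.log (1 - 1 / 2 ^ d) := by rw [sum_Ico_eq_sum_range]; simp [add_comm]
      _ ≤ ∑ d ∈ n.divisors, Real.log (1 - 1 / 2 ^ d) := sum_le_sum_of_subset_of_nonpos' (filter_subset ..)
        fun d hd _ => Real.log_nonpos (sub_pos.2 (k d (mem_Ico.1 hd).1)).le (sub_le_self 1 (by positivity))
      _ ≤ _ := sum_le_sum fun d hd => Real.log_le_log (sub_pos.2 (k d (Nat.pos_of_mem_divisors hd))) (by gcongr)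
  obtain ⟨n, rfl⟩ : ∃ m, n = m + 1 := ⟨n - 1, by omega⟩
  have h4 := (Real.log_le_log (by norm_num) (le_add_of_nonneg_right (by positivity) :
    (1 : ℝ) / 4 ≤ 1 / 4 + 1 / 2 ^ (n + 2))).trans ((prod_ge n).trans (h3.trans h2))
  rw [← Real.log_pow, ← Real.log_div (pos _).ne' (by positivity), Real.log_le_log_iff (by norm_num)
    (div_pos (pos _) (by positivity)), le_div_iff₀ (by positivity)] at h4
  linarith

theorem exists_prim {a n : ℕ} (ha : 1 < a) (hn : 2 < n) : ∃ m : ℕ, m ∣ a ^ n - 1 ∧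
    (∀ i, 1 ≤ i → i < n → m.Coprime (a ^ i - 1)) ∧ (cyclotomic n ℤ).eval (a : ℤ) ≤ m * n := by
  set Φ := (cyclotomic n ℤ).eval (a : ℤ) with hΦ
  have hpos : 0 < Φ := cyclotomic_pos' n (by exact_mod_cast ha)
  have key : ∀ r : ℕ, r.Prime → r ∣ Φ.natAbs → orderOf (a : ZMod r) ≠ n →
      ∃ k m, ¬ r ∣ m ∧ n = r ^ (k + 1) * m ∧ orderOf (a : ZMod r) = m ∧ m < r := by
    intro r hr hd hcon
    have := Fact.mk hr
    obtain ⟨k, m, hm, he⟩ := Nat.exists_eq_pow_mul_and_not_dvd (by omega : n ≠ 0) r hr.ne_one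
    have : NeZero (m : ZMod r) := ⟨fun h => hm ((ZMod.natCast_eq_zero_iff m r).1 h)⟩
    have h1 : (cyclotomic (r ^ k * m) (ZMod r)).IsRoot (a : ZMod r) := by
      rw [← he, IsRoot.def, ← map_cyclotomic_int, ← Int.cast_natCast, eval_intCast_map, eq_intCast, Int.cast_id, ← hΦ,
        ZMod.intCast_zmod_eq_zero_iff_dvd]
      exact Int.natCast_dvd.2 hd
    have h3 := (isRoot_cyclotomic_prime_pow_mul_iff_of_charP.1 h1).eq_orderOf
    rcases k with _ | k
    · exact absurd (by rw [← h3, he, pow_zero, one_mul]) hcon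
    refine ⟨k, m, hm, he, h3.symm, ?_⟩
    have hm0 : m ≠ 0 := fun h => hm (h ▸ dvd_zero r)
    have h4 : (a : ZMod r) ≠ 0 := fun h => by
      have := pow_orderOf_eq_one (a : ZMod r)
      rw [← h3, h, zero_pow hm0] at this
      exact zero_ne_one this
    have := Nat.le_of_dvd (by have := hr.two_le; omega) (ZMod.orderOf_dvd_card_sub_one h4)
    have := hr.two_le
    omega
  have dv : Φ.natAbs ∣ a ^ n - 1 := by
    have := eval_dvd (x := (a : ℤ)) (cyclotomic.dvd_X_pow_sub_one n ℤ)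
    rw [← Int.natCast_dvd_natCast, Int.natAbs_dvd, Nat.cast_sub (Nat.one_le_pow _ _ (by omega))]
    simpa using this
  have fin : ∀ m, m ∣ Φ.natAbs → (∀ r, r.Prime → r ∣ m → orderOf (a : ZMod r) = n) → ∀ i, 1 ≤ i → i < n →
      m.Coprime (a ^ i - 1) := fun m _ h i h1 h2 => Nat.coprime_of_dvd fun r hr d1 d2 => by
    rw [← ZMod.natCast_eq_zero_iff, Nat.cast_sub (Nat.one_le_pow _ _ (by omega)), sub_eq_zero] at d2
    push_cast at d2
    rw [← orderOf_dvd_iff_pow_eq_one, h r hr d1] at d2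
    exact (Nat.le_of_dvd h1 d2).not_gt h2
  by_cases hall : ∀ r, r.Prime → r ∣ Φ.natAbs → orderOf (a : ZMod r) = n
  · exact ⟨_, dv, fin _ dvd_rfl hall, by
      rw [Int.natAbs_of_nonneg hpos.le]; exact le_mul_of_one_le_right hpos.le (by exact_mod_cast (by omega))⟩
  push Not at hall
  obtain ⟨r, hr, hd, hne⟩ := hall
  obtain ⟨k, m, hm, he, ho, hlt⟩ := key r hr hd hne
  have hm0 : 0 < m := Nat.pos_of_ne_zero fun h => hm (h ▸ dvd_zero r)
  have huniq : ∀ {s : ℕ}, s.Prime → s ∣ Φ.natAbs → orderOf (a : ZMod s) ≠ n → s = r := by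
    intro s hs hd' hne'
    obtain ⟨k', m', hm', he', -, hlt'⟩ := key s hs hd' hne'
    by_contra hne
    have h1 : s ∣ m := (Nat.Coprime.pow_right _ ((Nat.coprime_primes hs hr).2 hne)).dvd_of_dvd_mul_left
      (by rw [← he, he']; exact ⟨s ^ k' * m', by ring⟩)
    have h2 : r ∣ m' := (Nat.Coprime.pow_right _ ((Nat.coprime_primes hr hs).2 (Ne.symm hne))).dvd_of_dvd_mul_left
      (by rw [← he', he]; exact ⟨r ^ k * m, by ring⟩)
    have := Nat.le_of_dvd hm0 h1
    have := Nat.le_of_dvd (Nat.pos_of_ne_zero fun h : m' = 0 => hm' (h ▸ dvd_zero s)) h2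
    omega
  set c : ℤ := (a : ℤ) ^ (r ^ k * m) with hc
  have hc1 : 1 < c := one_lt_pow₀ (by exact_mod_cast ha) (by have := hr.pos; positivity)
  have hdvd : Φ ∣ ∑ i ∈ Finset.range r, c ^ i * 1 ^ (r - 1 - i) := by
    have h1 := eval_dvd (x := (a : ℤ)) (X_pow_sub_one_mul_cyclotomic_dvd_X_pow_sub_one_of_dvd ℤ (d := r ^ k * m) (n := n)
      (Nat.mem_properDivisors.2 ⟨he ▸ ⟨r, by ring⟩, by
        rw [he]; exact Nat.mul_lt_mul_of_pos_right (Nat.pow_lt_pow_right hr.one_lt (by omega)) hm0⟩))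
    simp only [eval_mul, eval_sub, eval_pow, eval_X, eval_one] at h1
    rw [← hc, ← hΦ, show (a : ℤ) ^ n - 1 = c ^ r - 1 ^ r by rw [hc, ← pow_mul, he, one_pow]; congr 2; ring,
      ← geom_sum₂_mul, mul_comm] at h1
    exact (mul_dvd_mul_iff_right (by omega)).1 h1
  have hrc : (r : ℤ) ∣ c - 1 := by
    rw [← ZMod.intCast_zmod_eq_zero_iff_dvd, hc]
    push_cast
    rw [mul_comm, pow_mul, ← ho, pow_orderOf_eq_one, one_pow, sub_self]
  have hk2 : r = 2 → 1 ≤ k := by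
    rintro rfl
    by_contra hk
    obtain rfl : k = 0 := by omega
    omega
  have he1 : ¬ r ^ 2 ∣ Φ.natAbs := fun h => by
    have h1 : (r : ℤ) ^ 2 ∣ ∑ i ∈ Finset.range r, c ^ i * 1 ^ (r - 1 - i) :=
      (by exact_mod_cast Int.natCast_dvd.2 h : (r : ℤ) ^ 2 ∣ Φ).trans hdvd
    rcases hr.eq_two_or_odd' with rfl | hodd
    · obtain ⟨k, rfl⟩ : ∃ j, k = j + 1 := ⟨k - 1, by have := hk2 rfl; omega⟩
      simp only [Finset.sum_range_succ, Finset.range_zero, Finset.sum_empty, one_pow] at h1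
      have h3 : c = ((a : ℤ) ^ (2 ^ k * m)) ^ 2 := by rw [hc, ← pow_mul]; congr 1; ring
      have h4 : ∀ x : ℤ, x ^ 2 % 4 = 0 ∨ x ^ 2 % 4 = 1 := fun x => by
        rcases Int.even_or_odd' x with ⟨y, rfl | rfl⟩
        · left; rw [show (2 * y) ^ 2 = 4 * y ^ 2 by ring]; simp
        · right; exact Int.sq_mod_four_eq_one_of_odd ⟨y, rfl⟩
      have := h4 ((a : ℤ) ^ (2 ^ k * m))
      rw [← h3] at this
      norm_num at h1
      omega
    · have := emultiplicity_geom_sum₂_eq_one (Nat.prime_iff_prime_int.1 hr) hodd hrc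
        (fun h => (Nat.prime_iff_prime_int.1 hr).not_dvd_one (by simpa using dvd_sub h hrc))
      exact (emultiplicity_eq_coe.1 (this.trans Nat.cast_one.symm)).2 h1
  obtain ⟨M, hM⟩ := hd
  have hMd : M ∣ Φ.natAbs := ⟨r, by rw [hM, mul_comm]⟩
  refine ⟨M, hMd.trans dv, fin M hMd fun s hs d => by_contra fun h => he1 ?_, ?_⟩
  · rw [hM, sq]; exact mul_dvd_mul_left _ (huniq hs (d.trans hMd) h ▸ d)
  · rw [← Int.natAbs_of_nonneg hpos.le, hM, mul_comm]
    exact_mod_cast Nat.mul_le_mul_left M (Nat.le_of_dvd (by omega) ⟨r ^ k * m, by rw [he]; ring⟩)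

theorem le_totient (n : ℕ) : n ≤ 2 * n.totient ^ 2 := by
  have odd : ∀ n : ℕ, Odd n → n ≤ n.totient ^ 2 := fun n => by
    induction n using Nat.recOnPosPrimePosCoprime with
    | zero => simp
    | one => simp
    | prime_pow p k hp hk =>
      intro h
      obtain ⟨k, rfl⟩ : ∃ j, k = j + 1 := ⟨k - 1, by omega⟩
      have h2 : p ≠ 2 := by rintro rfl; exact absurd h (by simp [Nat.odd_pow_iff])
      obtain ⟨q, rfl⟩ : ∃ q, p = q + 3 := ⟨p - 3, by have := hp.two_le; omega⟩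
      rw [Nat.totient_prime_pow_succ hp, mul_pow, pow_succ, sq, mul_assoc]
      refine Nat.mul_le_mul_left _ ?_
      have := Nat.one_le_pow k (q + 3) (by omega)
      rw [show q + 3 - 1 = q + 2 from rfl]
      nlinarith
    | coprime a b _ _ hc iha ihb =>
      intro h
      rw [Nat.totient_mul hc, mul_pow]
      exact Nat.mul_le_mul (iha (Nat.Odd.of_mul_left h)) (ihb (Nat.Odd.of_mul_right h))
  rcases eq_or_ne n 0 with rfl | h
  · simp
  obtain ⟨k, m, hm, rfl⟩ := Nat.exists_eq_two_pow_mul_odd h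
  rw [Nat.totient_mul ((Nat.coprime_two_left.2 hm).pow_left k), mul_pow, ← mul_assoc]
  refine Nat.mul_le_mul ?_ (odd m hm)
  rcases k with _ | k
  · simp
  · rw [Nat.totient_prime_pow_succ Nat.prime_two, pow_succ]
    nlinarith [Nat.one_le_two_pow (n := k)]

def cnt (n : ℕ) : ℕ → ℕ
  | 0 => 0
  | k + 1 => cnt n k + if Nat.gcd n k = 1 then 1 else 0

theorem cnt_le {n k : ℕ} (h : k ≤ n) : cnt n k ≤ n.totient := by
  have : cnt n k = Nat.count n.Coprime k := by
    clear h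
    induction k with
    | zero => rfl
    | succ k ih => rw [cnt, ih, Nat.count_succ]
  rw [this, Nat.totient, ← Nat.count_eq_card_filter_range]
  exact Nat.count_monotone _ h

theorem big {n : ℕ} (h : 42 < n) : 4 * (n * (2 * n + 1)) < 2 ^ n.totient := by
  by_cases h1 : n < 1059
  · exact ((by decide +kernel : ∀ n < 1059, 42 < n → 4 * (n * (2 * n + 1)) < 2 ^ cnt n (min n 120)) n h1 h).trans_le
      (Nat.pow_le_pow_right two_pos (cnt_le (min_le_left ..)))
  have h2 := le_totient n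
  have h3 : ∀ t, 24 ≤ t → 32 * t ^ 4 + 8 * t ^ 2 < 2 ^ t := fun t ht => by
    induction t, ht using Nat.le_induction with
    | base => norm_num
    | succ t ht ih =>
      rw [pow_succ 2]
      obtain ⟨s, rfl⟩ := Nat.exists_eq_add_of_le ht
      refine lt_of_le_of_lt ?_ (Nat.mul_lt_mul_of_pos_right ih two_pos)
      ring_nf
      omega
  generalize n.totient = t at *
  refine lt_of_le_of_lt ?_ (h3 t (by_contra fun h4 => by nlinarith))
  nlinarith

def pp (a n : ℕ) : ℕ := (fun m => m / Nat.gcd m (∏ i ∈ Ico 1 n, (a ^ i - 1)))^[8] (a ^ n - 1)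

set_option synthInstance.maxSize 1000 in
theorem prim {a n : ℕ} (ha : 2 ≤ a) (hn : 3 ≤ n) (h : (a, n) ∉ [(2, 6), (2, 4), (2, 10), (2, 12), (2, 18), (3, 4), (3, 6),
    (5, 6), (2, 3), (2, 8), (2, 20), (4, 3), (4, 6)]) :
    ∃ m : ℕ, m ∣ a ^ n - 1 ∧ (∀ i : ℕ, 1 ≤ i → i < n → m.Coprime (a ^ i - 1)) ∧ 3 * n + 1 ≤ m := by
  by_cases h1 : a < 18 ∧ n < 43
  · obtain ⟨k1, k2, k3⟩ := (by decide +kernel : ∀ a < 18, ∀ n < 43, 2 ≤ a → 3 ≤ n → (a, n) ∉ [(2, 6), (2, 4), (2, 10),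
      (2, 12), (2, 18), (3, 4), (3, 6), (5, 6), (2, 3), (2, 8), (2, 20), (4, 3), (4, 6)] → pp a n ∣ a ^ n - 1 ∧
        (∀ i < n, 1 ≤ i → (pp a n).Coprime (a ^ i - 1)) ∧ 3 * n + 1 ≤ pp a n) a h1.1 n h1.2 ha hn h
    exact ⟨_, k1, fun i a b => k2 i b a, k3⟩
  have h2 : 4 * (n * (2 * n + 1)) < a ^ n.totient := by
    by_cases h2 : 42 < n
    · exact (big h2).trans_le (Nat.pow_le_pow_left ha _)
    exact ((by decide +kernel : ∀ n < 43, 3 ≤ n → 4 * (n * (2 * n + 1)) < 18 ^ n.totient) n (by omega) hn).trans_le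
      (Nat.pow_le_pow_left (by omega) _)
  obtain ⟨m, k1, k2, k3⟩ := exists_prim (a := a) (n := n) ha hn
  refine ⟨m, k1, k2, ?_⟩
  have k4 := cyc_ge (x := a) (by exact_mod_cast ha) (by omega : 0 < n)
  rw [← map_cyclotomic_int, ← Int.cast_natCast, eval_intCast_map, eq_intCast, Int.cast_id] at k4
  have k5 : a ^ n.totient ≤ 4 * (m * n) := by
    have : (((cyclotomic n ℤ).eval (a : ℤ) : ℤ) : ℝ) ≤ m * n := by exact_mod_cast k3
    have : ((a : ℤ) : ℝ) ^ n.totient ≤ 4 * (m * n) := by linarith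
    exact_mod_cast this
  have k6 : 2 * n + 1 < m := by nlinarith
  have k7 := Cfsg.Agent.S4422.result a n m ha (by omega) k1 k2
  rw [Nat.mod_eq_of_lt (by omega : 1 < n)] at k7
  have k8 := Nat.div_add_mod m n
  have : 2 < m / n := by nlinarith
  nlinarith

end H17.Zs
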